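import Cfsg.Agent.Lib.Geometric.OrthTensorMax.Sym
import Cfsg.Agent.Lib.Geometric.TensorMaps

/-!
A quadratic form on a space of dimension twelve whose polar form is the tensor product of a
symmetric form in dimension three and one of minus type in dimension four, in odd characteristic:
frames, contractions and factorwise isometries.
-/

set_option autoImplicit false
set_option linter.unusedSectionVars false

namespace CfsgLib.Geometric.OrthThreeFour

open Matrix QuadraticMap Tensor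

variable {ι : Type} [Fintype ι] [DecidableEq ι] {F : Type*} [Field F]

/-- The polar form of `Q` is the tensor product of `f₁` and `f₂`, and `f₂` has no isotropic
plane. -/
structure Data (Q : QuadraticForm F (ι → F)) (e : ι ≃ Fin 3 × Fin 4) (P : GL ι F)
    (f₁ : (Fin 3 → F) → (Fin 3 → F) → F) (f₂ : (Fin 4 → F) → (Fin 4 → F) → F) : Prop where
  sym₁ : OrthTensor.SymForm f₁
  sym₂ : OrthTensor.SymForm f₂
  minus : ∀ z z', f₂ z z = 0 → f₂ z' z' = 0 → f₂ z z' = 0 → z ≠ 0 → z' ∈ Submodule.span F {z}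
  nondeg : CfsgLib.ClassicalForms.Nondeg Q
  many : ∃ t : F, t ≠ 0 ∧ t * t ≠ 1
  polar_pt : ∀ x x' y y', polar Q (pt e P x y) (pt e P x' y') = f₁ x x' * f₂ y y'

/-- An orthogonal basis of the first factor. -/
structure Frame (f₁ : (Fin 3 → F) → (Fin 3 → F) → F) (v p q : Fin 3 → F) : Prop where
  hv : f₁ v v ≠ 0
  hp : f₁ p p ≠ 0
  hq : f₁ q q ≠ 0
  pv : f₁ p v = 0
  qv : f₁ q v = 0
  qp : f₁ q p = 0
  dec : ∀ x, x = (f₁ x v / f₁ v v) • v + (f₁ x p / f₁ p p) • p + (f₁ x q / f₁ q q) • q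

/-- A hyperbolic pair and a vector orthogonal to it in the first factor. -/
structure IsoFrame (f₁ : (Fin 3 → F) → (Fin 3 → F) → F) (u u' d : Fin 3 → F) : Prop where
  uu : f₁ u u = 0
  vv : f₁ u' u' = 0
  uv : f₁ u u' = 1
  du : f₁ d u = 0
  dv : f₁ d u' = 0
  dd : f₁ d d ≠ 0
  dec : ∀ x, x = f₁ x u' • u + f₁ x u • u' + (f₁ x d / f₁ d d) • d

/-- A hyperbolic pair and an orthogonal basis of its orthogonal in the second factor. -/
structure WFrame (f₂ : (Fin 4 → F) → (Fin 4 → F) → F) (w w' y₁ y₂ : Fin 4 → F) : Prop where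
  ww : f₂ w w = 0
  vv : f₂ w' w' = 0
  wv : f₂ w w' = 1
  y₁w : f₂ y₁ w = 0
  y₁v : f₂ y₁ w' = 0
  y₂w : f₂ y₂ w = 0
  y₂v : f₂ y₂ w' = 0
  y₁₂ : f₂ y₂ y₁ = 0
  y₁₁ : f₂ y₁ y₁ ≠ 0
  y₂₂ : f₂ y₂ y₂ ≠ 0
  dec : ∀ x, x = f₂ x w' • w + f₂ x w • w' + (f₂ x y₁ / f₂ y₁ y₁) • y₁ + (f₂ x y₂ / f₂ y₂ y₂) • y₂

variable {Q : QuadraticForm F (ι → F)} {e : ι ≃ Fin 3 × Fin 4} {P : GL ι F}
  {f₁ : (Fin 3 → F) → (Fin 3 → F) → F} {f₂ : (Fin 4 → F) → (Fin 4 → F) → F}

namespace Data

variable (hT : Data Q e P f₁ f₂)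
include hT

lemma two_ne : (2 : F) ≠ 0 := hT.sym₁.two_ne

lemma five_le_card : 5 ≤ Fintype.card ι := by
  rw [Fintype.card_congr e, Fintype.card_prod, Fintype.card_fin, Fintype.card_fin]
  norm_num

/-- Completing an orthogonal pair. -/
lemma exists_frame_of_pair {v p : Fin 3 → F} (hv : f₁ v v ≠ 0) (hp : f₁ p p ≠ 0)
    (hpv : f₁ p v = 0) : ∃ q, Frame f₁ v p q := by
  have hg := hT.sym₁
  set Φ := (hg.fl v).prod (hg.fl p) with hΦ
  obtain ⟨x, hx, hx0⟩ := Submodule.exists_mem_ne_zero_of_ne_bot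
    (LinearMap.ker_ne_bot_of_finrank_lt (f := Φ) (by simp))
  obtain ⟨y, hy⟩ := hg.exists_ne hx0
  obtain ⟨hxv, hxp⟩ : f₁ x v = 0 ∧ f₁ x p = 0 := by simpa [hΦ] using hx
  set y' := y - (f₁ y v / f₁ v v) • v - (f₁ y p / f₁ p p) • p with hy'
  have hvp : f₁ v p = 0 := by rw [hg.symm, hpv]
  have hy'm : y' ∈ LinearMap.ker Φ := by
    simp [hΦ, hy', hg.sub_left, hg.smul_left, hpv, hvp, hv, hp]
  have hxy : f₁ x y' ≠ 0 := by
    simpa [hy', hg.sub_right, hg.smul_right, hxv, hxp] using hy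
  obtain ⟨q, hq, hqq⟩ := hg.exists_aniso_in hx hy'm hxy
  obtain ⟨hqv, hqp⟩ : f₁ q v = 0 ∧ f₁ q p = 0 := by simpa [hΦ] using hq
  refine ⟨q, hv, hp, hqq, hpv, hqv, hqp, fun z => ?_⟩
  have hli : LinearIndependent F ![v, p, q] := by
    rw [Fintype.linearIndependent_iff]
    intro g hsum
    simp only [Fin.sum_univ_three, cons_val_zero, cons_val_one, cons_val_two, head_cons,
      tail_cons] at hsum
    have e0 := congrArg (fun w => f₁ w v) hsum
    have e1 := congrArg (fun w => f₁ w p) hsum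
    have e2 := congrArg (fun w => f₁ w q) hsum
    simp [hg.add_left, hg.smul_left, hg.zero_left, hpv, hqv, hqp, hvp, hg.symm v q, hg.symm p q,
      hv, hp, hqq] at e0 e1 e2
    intro i
    fin_cases i
    exacts [e0, e1, e2]
  obtain ⟨g, hsum⟩ := (Submodule.mem_span_range_iff_exists_fun F).mp
    (hli.span_eq_top_of_card_eq_finrank (by simp) ▸ Submodule.mem_top (x := z))
  simp only [Fin.sum_univ_three, cons_val_zero, cons_val_one, cons_val_two, head_cons,
    tail_cons] at hsum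
  rw [← hsum]
  simp [hg.add_left, hg.smul_left, hpv, hqv, hqp, hvp, hg.symm v q, hg.symm p q, hv, hp, hqq]

/-- Completing an anisotropic vector. -/
lemma exists_frame {v : Fin 3 → F} (hv : f₁ v v ≠ 0) : ∃ p q, Frame f₁ v p q := by
  have hg := hT.sym₁
  set Φ := hg.fl v with hΦ
  obtain ⟨x, hx, hx0⟩ := Submodule.exists_mem_ne_zero_of_ne_bot
    (LinearMap.ker_ne_bot_of_finrank_lt (f := Φ) (by simp))
  obtain ⟨y, hy⟩ := hg.exists_ne hx0
  have hxv : f₁ x v = 0 := hx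
  set y' := y - (f₁ y v / f₁ v v) • v with hy'
  have hy'm : y' ∈ LinearMap.ker Φ := by simp [hΦ, hy', hg.sub_left, hg.smul_left, hv]
  have hxy : f₁ x y' ≠ 0 := by
    simpa [hy', hg.sub_right, hg.smul_right, hxv] using hy
  obtain ⟨p, hp, hpp⟩ := hg.exists_aniso_in hx hy'm hxy
  exact ⟨p, hT.exists_frame_of_pair hv hpp hp⟩

/-- A hyperbolic pair and an anisotropic vector orthogonal to it form a frame. -/
lemma isoFrame_of {u u' d : Fin 3 → F} (hu : f₁ u u = 0) (hu' : f₁ u' u' = 0) (h1 : f₁ u u' = 1)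
    (hdu : f₁ d u = 0) (hdu' : f₁ d u' = 0) (hdd : f₁ d d ≠ 0) : IsoFrame f₁ u u' d := by
  have hg := hT.sym₁
  refine ⟨hu, hu', h1, hdu, hdu', hdd, fun z => ?_⟩
  have h1' : f₁ u' u = 1 := by rw [hg.symm, h1]
  have hud : f₁ u d = 0 := by rw [hg.symm, hdu]
  have hu'd : f₁ u' d = 0 := by rw [hg.symm, hdu']
  have hli : LinearIndependent F ![u, u', d] := by
    rw [Fintype.linearIndependent_iff]
    intro g hsum
    simp only [Fin.sum_univ_three, cons_val_zero, cons_val_one, cons_val_two, head_cons,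
      tail_cons] at hsum
    have e0 := congrArg (fun w => f₁ w u') hsum
    have e1 := congrArg (fun w => f₁ w u) hsum
    have e2 := congrArg (fun w => f₁ w d) hsum
    simp [hg.add_left, hg.smul_left, hg.zero_left, hu, hu', h1, h1', hdu, hdu', hud, hu'd,
      hdd] at e0 e1 e2
    intro i
    fin_cases i
    exacts [e0, e1, e2]
  obtain ⟨g, hsum⟩ := (Submodule.mem_span_range_iff_exists_fun F).mp
    (hli.span_eq_top_of_card_eq_finrank (by simp) ▸ Submodule.mem_top (x := z))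
  simp only [Fin.sum_univ_three, cons_val_zero, cons_val_one, cons_val_two, head_cons,
    tail_cons] at hsum
  rw [← hsum]
  simp [hg.add_left, hg.smul_left, hu, hu', h1, h1', hdu, hdu', hud, hu'd, hdd]

/-- Completing an isotropic vector. -/
lemma exists_isoFrame {u : Fin 3 → F} (hu : f₁ u u = 0) (hu0 : u ≠ 0) :
    ∃ u' d, IsoFrame f₁ u u' d := by
  obtain ⟨u', hu', h1⟩ := hT.sym₁.exists_hyp hu hu0
  obtain ⟨d, hdu, hdu', hdd⟩ := hT.sym₁.exists_aniso_pr (by simp) hu hu' h1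
  exact ⟨u', d, hT.isoFrame_of hu hu' h1 hdu hdu' hdd⟩

lemma exists_iso₁ [Finite F] : ∃ u u' d, IsoFrame f₁ u u' d := by
  obtain ⟨u, hu0, hu⟩ := hT.sym₁.exists_isotropic (by simp)
  exact ⟨u, hT.exists_isoFrame hu hu0⟩

/-- Completing an isotropic vector of the second factor. -/
lemma exists_wframe {w : Fin 4 → F} (hw : f₂ w w = 0) (hw0 : w ≠ 0) :
    ∃ w' y₁ y₂, WFrame f₂ w w' y₁ y₂ := by
  have hg := hT.sym₂
  obtain ⟨w', hw', h1⟩ := hg.exists_hyp hw hw0
  obtain ⟨y₁, a1, b1, c1⟩ := hg.exists_aniso_pr (by simp) hw hw' h1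
  obtain ⟨y₂, a2, b2, h21, c2⟩ := hg.exists_aniso_pr_two (by simp) hw hw' h1 a1 b1 c1
  refine ⟨w', y₁, y₂, hw, hw', h1, a1, b1, a2, b2, h21, c1, c2, fun z => ?_⟩
  have h1' : f₂ w' w = 1 := by rw [hg.symm, h1]
  have a1' : f₂ w y₁ = 0 := by rw [hg.symm, a1]
  have b1' : f₂ w' y₁ = 0 := by rw [hg.symm, b1]
  have a2' : f₂ w y₂ = 0 := by rw [hg.symm, a2]
  have b2' : f₂ w' y₂ = 0 := by rw [hg.symm, b2]
  have h12 : f₂ y₁ y₂ = 0 := by rw [hg.symm, h21]
  have hli : LinearIndependent F ![w, w', y₁, y₂] := by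
    rw [Fintype.linearIndependent_iff]
    intro g hsum
    simp only [Fin.sum_univ_four, cons_val_zero, cons_val_one, cons_val_two, cons_val_three,
      head_cons, tail_cons] at hsum
    have e0 := congrArg (fun x => f₂ x w') hsum
    have e1 := congrArg (fun x => f₂ x w) hsum
    have e2 := congrArg (fun x => f₂ x y₁) hsum
    have e3 := congrArg (fun x => f₂ x y₂) hsum
    simp [hg.add_left, hg.smul_left, hg.zero_left, hw, hw', h1, h1', a1, b1, a2, b2, a1', b1',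
      a2', b2', h12, h21, c1, c2] at e0 e1 e2 e3
    intro i
    fin_cases i
    exacts [e0, e1, e2, e3]
  obtain ⟨g, hsum⟩ := (Submodule.mem_span_range_iff_exists_fun F).mp
    (hli.span_eq_top_of_card_eq_finrank (by simp) ▸ Submodule.mem_top (x := z))
  simp only [Fin.sum_univ_four, cons_val_zero, cons_val_one, cons_val_two, cons_val_three,
    head_cons, tail_cons] at hsum
  rw [← hsum]
  simp [hg.add_left, hg.smul_left, hw, hw', h1, h1', a1, b1, a2, b2, a1', b1', a2', b2', h12, h21,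
    c1, c2]

lemma exists_iso₂ [Finite F] : ∃ w w' y₁ y₂, WFrame f₂ w w' y₁ y₂ := by
  obtain ⟨w, hw0, hw⟩ := hT.sym₂.exists_isotropic (by simp)
  exact ⟨w, hT.exists_wframe hw hw0⟩

/-- The orthogonal of a hyperbolic pair of the second factor is anisotropic. -/
lemma eq_zero_of_aniso {w w' : Fin 4 → F} (hw : f₂ w w = 0) (hw1 : f₂ w w' = 1) {y : Fin 4 → F}
    (h1 : f₂ y w = 0) (h2 : f₂ y w' = 0) (hy : f₂ y y = 0) : y = 0 := by
  have hg := hT.sym₂
  obtain ⟨t, rfl⟩ := Submodule.mem_span_singleton.mp (hT.minus w y hw hy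
    (by rw [hg.symm, h1]) fun h => by simp [h, hg.zero_left] at hw1)
  rw [hg.smul_left, hw1, mul_one] at h2
  rw [h2, zero_smul]

/-- The commutator group of the second isometry group moves any isotropic line to any other. -/
lemma exists_line_move {w z : Fin 4 → F} (hw : f₂ w w = 0) (hw0 : w ≠ 0) (hz : f₂ z z = 0)
    (hz0 : z ≠ 0) : ∃ b ∈ ⁅isom f₂, isom f₂⁆, ∃ s : F, s ≠ 0 ∧ ap b z = s • w := by
  have hg := hT.sym₂
  have h2 := hT.two_ne
  by_cases hzw : f₂ z w = 0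
  · obtain ⟨t, ht⟩ := Submodule.mem_span_singleton.mp (hT.minus w z hw hz
      (by rw [hg.symm, hzw]) hw0)
    refine ⟨1, one_mem _, t, fun h => hz0 (by rw [← ht, h, zero_smul]), ?_⟩
    rw [ap_one, ht]
  set z' := (f₂ z w)⁻¹ • z with hz'
  have hz'z : f₂ z' z' = 0 := by rw [hz', hg.smul_left, hg.smul_right, hz, mul_zero, mul_zero]
  have hwz' : f₂ w z' = 1 := by
    rw [hz', hg.smul_right, hg.symm w z, inv_mul_cancel₀ hzw]
  obtain ⟨y, hyw, hyz, hyy⟩ := hg.exists_aniso_pr (by simp) hw hz'z hwz'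
  obtain ⟨hp, hpz⟩ := hg.iso3_spec hw hz'z hwz' hyw hyz
  set p := OrthTensor.SymForm.iso3 f₂ w z' y with hpdef
  have hpw : f₂ p w ≠ 0 := by
    rw [hpdef, OrthTensor.SymForm.iso3, hg.sub_left, hg.add_left, hg.smul_left, hw, hyw,
      hg.symm z' w, hwz']
    simpa using mul_ne_zero (inv_ne_zero h2) hyy
  set a := (f₂ p z)⁻¹ • z with ha
  set b := (f₂ p w)⁻¹ • w with hb
  have hpz' : f₂ p z ≠ 0 := fun h => by
    rw [hz', hg.smul_right, h, mul_zero] at hpz; exact zero_ne_one hpz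
  have hpa : f₂ p a = 1 := by rw [ha, hg.smul_right, inv_mul_cancel₀ hpz']
  have hpb : f₂ p b = 1 := by rw [hb, hg.smul_right, inv_mul_cancel₀ hpw]
  have hd : f₂ p (b - a) = 0 := by rw [hg.sub_right, hpa, hpb, sub_self]
  refine ⟨hg.rho p (b - a) hp hd, hg.rho_mem_commutator _ _, f₂ p z * (f₂ p w)⁻¹,
    mul_ne_zero hpz' (inv_ne_zero hpw), ?_⟩
  have h := Orth.ap_sg_move (Q := hg.sq) (y := p) (u := a) (v := b) (hg.sq_eq_zero.mpr hp)
    (hg.sq_eq_zero.mpr (by rw [ha, hg.smul_left, hg.smul_right, hz, mul_zero, mul_zero]))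
    (hg.sq_eq_zero.mpr (by rw [hb, hg.smul_left, hg.smul_right, hw, mul_zero, mul_zero]))
    (by rw [hg.polar_sq, hpa]) (by rw [hg.polar_sq, hpb]) (by rw [hg.polar_sq, hd])
  have hza : z = f₂ p z • a := by rw [ha, smul_inv_smul₀ hpz']
  conv_lhs => arg 2; rw [hza]
  rw [ap_smul, OrthTensor.SymForm.rho, h, hb, smul_smul]

/-! ### Contractions -/

omit hT in
/-- Contraction with `f₂(·, y)`. -/
def cc (hT : Data Q e P f₁ f₂) (y : Fin 4 → F) : (ι → F) →ₗ[F] (Fin 3 → F) :=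
  con e P (hT.sym₂.fl y)

omit hT in
/-- Contraction with `f₁(·, a)`. -/
def dd (hT : Data Q e P f₁ f₂) (a : Fin 3 → F) : (ι → F) →ₗ[F] (Fin 4 → F) :=
  conr e P (hT.sym₁.fl a)

@[simp] lemma cc_pt (y : Fin 4 → F) (a : Fin 3 → F) (z : Fin 4 → F) :
    hT.cc y (pt e P a z) = f₂ z y • a := by simp [cc]

@[simp] lemma dd_pt (a b : Fin 3 → F) (z : Fin 4 → F) :
    hT.dd a (pt e P b z) = f₁ b a • z := by simp [dd]

lemma cc_add (y y' : Fin 4 → F) (X : ι → F) : hT.cc (y + y') X = hT.cc y X + hT.cc y' X := by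
  have h : hT.cc (y + y') = hT.cc y + hT.cc y' := ext_pt e P fun a z => by
    simp [hT.sym₂.add_right, add_smul]
  exact LinearMap.congr_fun h X

lemma cc_smul (t : F) (y : Fin 4 → F) (X : ι → F) : hT.cc (t • y) X = t • hT.cc y X := by
  have h : hT.cc (t • y) = t • hT.cc y := ext_pt e P fun a z => by
    simp [hT.sym₂.smul_right, mul_smul]
  exact LinearMap.congr_fun h X

/-- Pairing with a pure tensor through the contraction. -/
lemma polar_right (X : ι → F) (a : Fin 3 → F) (z : Fin 4 → F) :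
    polar Q X (pt e P a z) = f₁ (hT.cc z X) a := by
  have h : (polarBilin Q).flip (pt e P a z) = (hT.sym₁.fl a).comp (hT.cc z) :=
    ext_pt e P fun b y => by
      simp [polarBilin_apply_apply, hT.polar_pt, hT.sym₁.smul_left]
      ring
  simpa using LinearMap.congr_fun h X

lemma polar_left (X : ι → F) (a : Fin 3 → F) (z : Fin 4 → F) :
    polar Q (pt e P a z) X = f₁ a (hT.cc z X) := by
  rw [polar_comm, hT.polar_right, hT.sym₁.symm]

/-- A vector in terms of its contractions at a frame. -/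
lemma expand {w w' y₁ y₂ : Fin 4 → F} (fr : WFrame f₂ w w' y₁ y₂) (X : ι → F) :
    X = pt e P (hT.cc w' X) w + pt e P (hT.cc w X) w' +
      pt e P ((f₂ y₁ y₁)⁻¹ • hT.cc y₁ X) y₁ + pt e P ((f₂ y₂ y₂)⁻¹ • hT.cc y₂ X) y₂ := by
  have h : LinearMap.id = (ptl e P w).comp (hT.cc w') + (ptl e P w').comp (hT.cc w) +
      (ptl e P y₁).comp ((f₂ y₁ y₁)⁻¹ • hT.cc y₁) + (ptl e P y₂).comp ((f₂ y₂ y₂)⁻¹ • hT.cc y₂) :=
    ext_pt e P fun a z => by
      conv_lhs => rw [LinearMap.id_apply, fr.dec z]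
      simp only [LinearMap.add_apply, LinearMap.comp_apply, LinearMap.smul_apply, cc_pt, ptl_apply,
        pt_add_right, pt_smul_right, pt_smul_left, smul_smul, div_eq_inv_mul]
  exact LinearMap.congr_fun h X

/-- Two vectors with equal contractions are equal. -/
lemma ext_cc {X Y : ι → F} (h : ∀ z, hT.cc z X = hT.cc z Y) : X = Y := by
  by_contra hne
  have h0 : (polarBilin Q) (X - Y) = 0 := ext_pt e P fun a z => by
    rw [polarBilin_apply_apply, hT.polar_right, map_sub, h, sub_self, hT.sym₁.zero_left,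
      LinearMap.zero_apply]
  exact hne (sub_eq_zero.mp (hT.nondeg (X - Y) fun Z => LinearMap.congr_fun h0 Z))

lemma Q_eq (X : ι → F) : Q X = (2 : F)⁻¹ * polar Q X X := by
  rw [Orth.polar_self', ← mul_assoc, inv_mul_cancel₀ hT.two_ne, one_mul]

lemma Q_pt_iso (a : Fin 3 → F) {z : Fin 4 → F} (hz : f₂ z z = 0) : Q (pt e P a z) = 0 := by
  rw [hT.Q_eq, hT.polar_pt, hz, mul_zero, mul_zero]

/-- A map keeping the pairing of pure tensors is an isometry. -/
lemma isometry_of_pt {g : GL ι F}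
    (h : ∀ x y x' y', polar Q (ap g (pt e P x y)) (ap g (pt e P x' y')) = f₁ x x' * f₂ y y') :
    g ∈ Cfsg.isometryGroup F (⇑Q) := by
  have h' : (polarBilin Q).compl₁₂ (apEquiv g).toLinearMap (apEquiv g).toLinearMap = polarBilin Q :=
    ext_pt e P fun u z => ext_pt e P fun u' z' => by
      simp only [LinearMap.compl₁₂_apply, LinearEquiv.coe_coe, apEquiv_apply,
        polarBilin_apply_apply, h, hT.polar_pt]
  refine Orth.mem_isometryGroup_iff.mpr fun x => ?_
  rw [hT.Q_eq, hT.Q_eq x]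
  congr 1
  exact LinearMap.congr_fun (LinearMap.congr_fun h' x) x

lemma kron_isometry {a : GL (Fin 3) F} {b : GL (Fin 4) F} (ha : a ∈ isom f₁) (hb : b ∈ isom f₂) :
    kron e P a b ∈ Cfsg.isometryGroup F (⇑Q) :=
  hT.isometry_of_pt fun x y x' y' => by
    rw [ap_kron, ap_kron, hT.polar_pt, mem_isom_iff.mp ha, mem_isom_iff.mp hb]

omit hT in
lemma kron_mul (a a' : GL (Fin 3) F) (b b' : GL (Fin 4) F) :
    kron e P a b * kron e P a' b' = kron e P (a * a') (b * b') :=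
  gl_ext_pt e P fun x y => by simp [ap_mul]

omit hT in
lemma kron_one : kron e P (1 : GL (Fin 3) F) (1 : GL (Fin 4) F) = 1 :=
  gl_ext_pt e P fun x y => by simp

/-- Commutators of the second factor lie in the stabiliser in `omegaGL`. -/
lemma kron_right_mem {b : GL (Fin 4) F} (hb : b ∈ ⁅isom f₂, isom f₂⁆) :
    kron e P (1 : GL (Fin 3) F) b ∈
      Cfsg.Geo.tensorProductSubgroup 3 4 e P ⊓ Cfsg.Geo.omegaGL (⇑Q) := by
  refine ⟨kron_mem e P _ b, ?_⟩
  let φ : GL (Fin 4) F →* GL ι F :=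
    MonoidHom.mk' (fun b => kron e P (1 : GL (Fin 3) F) b) fun b b' => by
      rw [kron_mul, one_mul]
  have h : (⁅isom f₂, isom f₂⁆).map φ ≤ Cfsg.Geo.omegaGL (⇑Q) := by
    rw [Subgroup.map_commutator, Orth.omegaGL_eq]
    refine Subgroup.commutator_mono ?_ ?_ <;>
    · rintro _ ⟨x, hx, rfl⟩
      exact hT.kron_isometry (one_mem _) hx
  exact h ⟨b, hb, rfl⟩

/-- An isometry keeps contractions at slices. -/
lemma cc_ap {g : GL ι F} (hg : g ∈ Cfsg.isometryGroup F (⇑Q)) {z z' : Fin 4 → F}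
    {a a' : Fin 3 → F} (h : ap g (pt e P a z) = pt e P a' z') (X : ι → F) :
    f₁ (hT.cc z' (ap g X)) a' = f₁ (hT.cc z X) a := by
  have h1 := Orth.polar_ap hg X (pt e P a z)
  rwa [h, hT.polar_right, hT.polar_right] at h1

/-- Contraction after a factorwise map with an isometry in the second factor. -/
lemma cc_kron {a : GL (Fin 3) F} {b : GL (Fin 4) F} (hb : b ∈ isom f₂) (z : Fin 4 → F)
    (X : ι → F) : hT.cc z (ap (kron e P a b) X) = ap a (hT.cc (ap b⁻¹ z) X) := by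
  have h : (hT.cc z).comp (apEquiv (kron e P a b)).toLinearMap =
      (apEquiv a).toLinearMap.comp (hT.cc (ap b⁻¹ z)) := ext_pt e P fun x y => by
    have h := mem_isom_iff.mp hb y (ap b⁻¹ z)
    rw [ap_ap_inv] at h
    simp [h]
  exact LinearMap.congr_fun h X

omit hT in
lemma kron_left_inj {a a' : GL (Fin 3) F}
    (h : kron e P a (1 : GL (Fin 4) F) = kron e P a' 1) : a = a' := by
  refine gl_ext fun x => pt_inj_left e P (y := fun _ => 1)
    (fun h0 => one_ne_zero (congrFun h0 0)) ?_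
  simpa using congrArg (fun g => ap g (pt e P x fun _ => 1)) h

end Data

end CfsgLib.Geometric.OrthThreeFour
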