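import Cfsg.Agent.Lib.Geometric.OrthThreeFour.Slice
import Cfsg.Agent.Lib.Signalizer.Generation
import Cfsg.Agent.Lib.TwoGroups.NormalAbelian
import Mathlib.GroupTheory.Sylow
import Mathlib.FieldTheory.Finite.Basic

/-!
In an overgroup of the stabiliser without long root elements at isotropic slices the centraliser of a
factorwise half-turn lies in the stabiliser.
-/

set_option autoImplicit false
set_option linter.unusedSectionVars false

namespace CfsgLib.Geometric.OrthThreeFour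

open Matrix QuadraticMap Tensor

variable {ι : Type} [Fintype ι] [DecidableEq ι] {F : Type*} [Field F]
variable {Q : QuadraticForm F (ι → F)} {e : ι ≃ Fin 3 × Fin 4} {P : GL ι F}
  {f₁ : (Fin 3 → F) → (Fin 3 → F) → F} {f₂ : (Fin 4 → F) → (Fin 4 → F) → F}

local notation "T₀" => Cfsg.Geo.tensorProductSubgroup 3 4 e P

namespace Data

variable (hT : Data Q e P f₁ f₂) [Finite F]
include hT

lemma ap_R {v : Fin 3 → F} (hv : f₁ v v ≠ 0) (X : ι → F) :
    ap (hT.R v) X = -X + pt e P v ((2 / f₁ v v) • hT.dd v X) := by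
  have h : (apEquiv (hT.R v)).toLinearMap =
      -LinearMap.id + (ptr e P v).comp ((2 / f₁ v v) • hT.dd v) :=
    ext_pt e P fun x z => by
      simp only [LinearEquiv.coe_coe, apEquiv_apply, LinearMap.add_apply, LinearMap.neg_apply,
        LinearMap.id_apply, LinearMap.comp_apply, LinearMap.smul_apply, ptr_apply, dd_pt, R,
        ap_kron, ap_one, hT.ap_half hv, pt_add_left, pt_smul_left, pt_smul_right, smul_smul]
      rw [← neg_one_smul F x, pt_smul_left, neg_one_smul]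
      congr 2
      field_simp
  exact LinearMap.congr_fun h X

lemma R_mul_self {v : Fin 3 → F} (hv : f₁ v v ≠ 0) : hT.R v * hT.R v = 1 := by
  rw [R, kron_mul, one_mul, hT.half_mul_self hv, kron_one]

lemma R_fix {v : Fin 3 → F} (hv : f₁ v v ≠ 0) (z : Fin 4 → F) :
    ap (hT.R v) (pt e P v z) = pt e P v z := by
  rw [R, ap_kron, ap_one, hT.ap_half_self hv]

lemma eq_of_R_fix {v : Fin 3 → F} (hv : f₁ v v ≠ 0) {X : ι → F} (h : ap (hT.R v) X = X) :
    X = pt e P v ((f₁ v v)⁻¹ • hT.dd v X) := by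
  rw [hT.ap_R hv] at h
  apply smul_right_injective (ι → F) hT.two_ne
  show (2 : F) • X = (2 : F) • pt e P v ((f₁ v v)⁻¹ • hT.dd v X)
  rw [← pt_smul_right, smul_smul, ← div_eq_mul_inv]
  linear_combination (norm := module) -h

/-- A map conjugating one half-turn to another maps the fixed spaces onto each other. -/
lemma exists_slice_map {v v' : Fin 3 → F} (hv : f₁ v v ≠ 0) (hv' : f₁ v' v' ≠ 0) {g : GL ι F}
    (h : g * hT.R v * g⁻¹ = hT.R v') :
    ∃ b : GL (Fin 4) F, ∀ z, ap g (pt e P v z) = pt e P v' (ap b z) := by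
  set L : (Fin 4 → F) →ₗ[F] (Fin 4 → F) :=
    ((f₁ v' v')⁻¹ • hT.dd v').comp ((apEquiv g).toLinearMap.comp (ptr e P v))
  have hL : ∀ z, ap g (pt e P v z) = pt e P v' (L z) := fun z => hT.eq_of_R_fix hv' (by
    rw [← h, ap_mul, ap_mul, ap_inv_ap, hT.R_fix hv])
  have hv0 : v ≠ 0 := fun h0 => hv (by rw [h0, hT.sym₁.zero_left])
  have hinj : Function.Injective L := fun z z' hzz => pt_inj_right e P hv0 (ap_injective g (by
    rw [hL, hL, hzz]))
  refine ⟨ofEquiv (LinearEquiv.ofBijective L ⟨hinj, LinearMap.injective_iff_surjective.mp hinj⟩),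
    fun z => ?_⟩
  rw [hL, ap_ofEquiv]
  rfl

lemma xs_zero {w : Fin 4 → F} (hw : f₂ w w = 0) (h : f₂ w 0 = 0) : hT.xs w 0 hw h = 1 :=
  gl_ext fun X => by
    rw [hT.ap_xs, hT.sym₂.zero_left, mul_zero, zero_smul, add_zero, pt_zero_right, add_zero, ap_one,
      ← zero_smul F (0 : Fin 4 → F), hT.cc_smul, zero_smul, pt_zero_left, sub_zero]

lemma xs_congr {w y y' : Fin 4 → F} (hw : f₂ w w = 0) (hy : f₂ w y = 0) (h : y = y') :
    hT.xs w y hw hy = hT.xs w y' hw (h ▸ hy) := by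
  subst h; rfl

lemma xs_nsmul {w y : Fin 4 → F} (hw : f₂ w w = 0) (hy : f₂ w y = 0) (n : ℕ) :
    ∃ h : f₂ w ((n : F) • y) = 0, hT.xs w y hw hy ^ n = hT.xs w ((n : F) • y) hw h := by
  refine ⟨by rw [hT.sym₂.smul_right, hy, mul_zero], ?_⟩
  induction n with
  | zero =>
    rw [pow_zero, hT.xs_congr hw _ (show ((0 : ℕ) : F) • y = 0 by simp), hT.xs_zero hw]
  | succ n ih =>
    rw [pow_succ, ih, hT.xs_mul]
    exact hT.xs_congr hw _ (by rw [Nat.cast_succ, add_smul, one_smul])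

lemma xs_pow_char (p : ℕ) [CharP F p] {w y : Fin 4 → F} (hw : f₂ w w = 0) (hy : f₂ w y = 0) :
    hT.xs w y hw hy ^ p = 1 := by
  obtain ⟨h, he⟩ := hT.xs_nsmul hw hy p
  rw [he, hT.xs_congr hw _ (show ((p : ℕ) : F) • y = 0 by rw [CharP.cast_eq_zero, zero_smul]),
    hT.xs_zero hw]

/-- A map commuting with a factorwise Siegel element keeps the slice. -/
lemma slice_of_comm {w w' y₁ y₂ y : Fin 4 → F} (fw : WFrame f₂ w w' y₁ y₂) (hy : f₂ w y = 0)
    (hyy : f₂ y y ≠ 0) (hyv : f₂ y w' = 0) {k : GL ι F}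
    (hk : k * hT.xs w y fw.ww hy = hT.xs w y fw.ww hy * k) (u : Fin 3 → F) :
    ∃ u', ap k (pt e P u w) = pt e P u' w := by
  set x := hT.xs w y fw.ww hy with hx
  set δ : (ι → F) →ₗ[F] (ι → F) := (apEquiv x).toLinearMap - LinearMap.id with hδdef
  have hyw : f₂ y w = 0 := hT.sym₂.eq_zero_comm.mp hy
  have hδ : ∀ X, δ X = ap x X - X := fun X => rfl
  have hδδ : ∀ X, δ (δ X) = pt e P (-(f₂ y y • hT.cc w X)) w := by
    intro X
    have h1 : hT.cc w (δ X) = 0 := by
      rw [hδ, hx, hT.ap_xs]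
      simp [map_add, map_sub, hyw, fw.ww]
    have h2 : hT.cc y (δ X) = f₂ y y • hT.cc w X := by
      rw [hδ, hx, hT.ap_xs]
      simp [map_add, map_sub, hT.sym₂.symm w y, hyw]
    rw [hδ (δ X), hx, hT.ap_xs_perp fw.ww hy h1, h2, sub_sub_cancel_left,
      ← neg_one_smul F (f₂ y y • hT.cc w X), pt_smul_left e P (-1 : F), neg_one_smul]
  have hcommδ : ∀ X, ap k (δ X) = δ (ap k X) := fun X => by
    rw [hδ, hδ, ap_sub, ← ap_mul, hk, ap_mul]
  refine ⟨-(f₂ y y • hT.cc w (ap k (pt e P (-(f₂ y y)⁻¹ • u) w'))), ?_⟩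
  rw [← hδδ, ← hcommδ, ← hcommδ, hδδ, cc_pt, hT.sym₂.symm w' w, fw.wv, one_smul, smul_smul,
    mul_neg, mul_inv_cancel₀ hyy, neg_smul, one_smul, neg_neg]

/-- A unipotent isometry of the first factor fixing an anisotropic vector is trivial. -/
lemma eq_one_of_unip (p : ℕ) [Fact p.Prime] [CharP F p] {a : GL (Fin 3) F} (ha : a ∈ isom f₁)
    {v : Fin 3 → F} (hv : f₁ v v ≠ 0) (hav : ap a v = v) {k : ℕ} (hk : a ^ p ^ k = 1) : a = 1 := by
  classical
  have hg := hT.sym₁
  have h2 := hT.two_ne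
  have hI := mem_isom_iff.mp ha
  -- a further fixed vector orthogonal to `v`
  obtain ⟨x, hx0, hxv, hax⟩ : ∃ x, x ≠ 0 ∧ f₁ x v = 0 ∧ ap a x = x := by
    let N : Matrix (Fin 3) (Fin 3) F := (a : Matrix (Fin 3) (Fin 3) F) - 1
    have hN : N ^ p ^ k = 0 := by
      have h1 : (a : Matrix (Fin 3) (Fin 3) F) ^ p ^ k = 1 := by
        rw [← Units.val_pow_eq_pow_val, hk, Units.val_one]
      rw [sub_pow_char_pow_of_commute p k (Commute.one_right _), h1, one_pow, sub_self]
    obtain ⟨p₀, q₀, fr⟩ := hT.exists_frame hv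
    have hp0 : p₀ ≠ 0 := fun h0 => fr.hp (by rw [h0, hg.zero_left])
    have hperp : ∀ n, f₁ ((N ^ n) *ᵥ p₀) v = 0 := by
      intro n
      induction n with
      | zero => simpa using fr.pv
      | succ n ih =>
        rw [pow_succ', ← Matrix.mulVec_mulVec, Matrix.sub_mulVec, Matrix.one_mulVec, ← ap_def,
          hg.sub_left, ih, sub_zero]
        conv_lhs => rw [← hav]
        rw [hI, ih]
    have hex : ∃ n, (N ^ n) *ᵥ p₀ = 0 := ⟨_, by rw [hN, Matrix.zero_mulVec]⟩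
    obtain ⟨n, hn⟩ : ∃ n, Nat.find hex = n + 1 := Nat.exists_eq_add_one.mpr
      (Nat.pos_of_ne_zero fun h0 => hp0 (by
        simpa [h0] using Nat.find_spec hex))
    refine ⟨(N ^ n) *ᵥ p₀, fun h0 => Nat.find_min hex (by omega) h0, hperp n, ?_⟩
    have h1 := Nat.find_spec hex
    rw [hn, pow_succ', ← Matrix.mulVec_mulVec, Matrix.sub_mulVec, Matrix.one_mulVec,
      sub_eq_zero] at h1
    rw [ap_def]
    exact h1
  have hvx : f₁ v x = 0 := by rw [hg.symm, hxv]
  by_cases hxx : f₁ x x = 0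
  · -- isotropic
    obtain ⟨x', fu⟩ := hT.exists_isoFrame_perp hv hxx hx0 hxv
    set c := f₁ (ap a x') x' with hc
    have a1 : f₁ (ap a x') x = 1 := by
      conv_lhs => rw [← hax]
      rw [hI, hg.symm, fu.uv]
    have a2 : f₁ (ap a x') v = 0 := by
      conv_lhs => rw [← hav]
      rw [hI, hg.symm, fu.dv]
    have hax' : ap a x' = c • x + x' := by
      conv_lhs => rw [fu.dec (ap a x'), a1, a2]
      simp [hc]
    have hc0 : c = 0 := by
      have h := hI x' x'
      rw [hax'] at h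
      simp only [hg.add_left, hg.add_right, hg.smul_left, hg.smul_right, fu.uu, fu.vv, fu.uv,
        hg.symm x' x] at h
      exact (mul_eq_zero.mp (show (2 : F) * c = 0 by linear_combination h)).resolve_left h2
    refine gl_ext fun z => ?_
    rw [ap_one, fu.dec z]
    simp only [ap_add, ap_smul, hax, hax', hav, hc0, zero_smul, zero_add]
  · -- anisotropic
    obtain ⟨r, fr⟩ := hT.exists_frame_of_pair hv hxx hxv
    have a1 : f₁ (ap a r) v = 0 := by
      conv_lhs => rw [← hav]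
      rw [hI, fr.qv]
    have a2 : f₁ (ap a r) x = 0 := by
      conv_lhs => rw [← hax]
      rw [hI, fr.qp]
    set s := f₁ (ap a r) r / f₁ r r with hs
    have har : ap a r = s • r := by
      conv_lhs => rw [fr.dec (ap a r), a1, a2, zero_div, zero_div, zero_smul, zero_smul, zero_add,
        zero_add]
    have hpow : ∀ n : ℕ, ap (a ^ n) r = s ^ n • r := by
      intro n
      induction n with
      | zero => simp
      | succ n ih => rw [pow_succ', ap_mul, ih, ap_smul, har, smul_smul, ← pow_succ]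
    have hs1 : s ^ p ^ k = 1 := by
      have h := hpow (p ^ k)
      rw [hk, ap_one] at h
      have h' := congrArg (fun z => f₁ z r) h
      simp only [hg.smul_left] at h'
      exact mul_right_cancel₀ fr.hq (by rw [one_mul]; exact h'.symm)
    have hs0 : s = 1 := by
      have : (s - 1) ^ p ^ k = 0 := by rw [sub_pow_char_pow, hs1, one_pow, sub_self]
      exact sub_eq_zero.mp (pow_eq_zero_iff (pow_ne_zero _ (Fact.out : p.Prime).ne_zero) |>.mp this)
    refine gl_ext fun z => ?_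
    rw [ap_one, fr.dec z]
    simp only [ap_add, ap_smul, hax, har, hav, hs0, one_smul]

variable {M : Subgroup (GL ι F)} (hM : hT.Small M)

omit hM in
/-- A member of the stabiliser fixing the slice of `v` pointwise acts on the first factor. -/
lemma left_of_fix {v : Fin 3 → F} (hv : f₁ v v ≠ 0) {k : GL ι F} (hk : k ∈ T₀)
    (hkI : k ∈ Cfsg.isometryGroup F (⇑Q)) (hfix : ∀ z, ap k (pt e P v z) = pt e P v z) :
    ∃ c ∈ isom f₁, ap c v = v ∧ k = kron e P c (1 : GL (Fin 4) F) := by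
  obtain ⟨a, ha, b, hb, rfl⟩ := hT.factor hk hkI
  obtain ⟨w, w', y₁, y₂, fw⟩ := hT.exists_iso₂
  have hdd : ∀ z, f₁ (ap a v) v • ap b z = f₁ v v • z := fun z => by
    have := congrArg (hT.dd v) (hfix z)
    rwa [ap_kron, dd_pt, dd_pt] at this
  have ha0 : f₁ (ap a v) v ≠ 0 := fun h0 => by
    have := hdd y₁
    rw [h0, zero_smul, eq_comm, smul_eq_zero] at this
    exact fw.y₁₁ (by rw [this.resolve_left hv, hT.sym₂.zero_left])
  set β := f₁ v v / f₁ (ap a v) v with hβ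
  have hbz : ∀ z, ap b z = β • z := fun z => by
    rw [hβ, div_eq_inv_mul, ← smul_smul, ← hdd, inv_smul_smul₀ ha0]
  have hββ : β * β = 1 := by
    have h := mem_isom_iff.mp hb y₁ y₁
    rw [hbz, hT.sym₂.smul_left, hT.sym₂.smul_right] at h
    exact mul_right_cancel₀ fw.y₁₁ (by linear_combination h)
  obtain ⟨c, hc, hca⟩ : ∃ c ∈ isom f₁, ∀ x, ap c x = β • ap a x := by
    rcases mul_self_eq_one_iff.mp hββ with h | h
    · exact ⟨a, ha, fun x => by rw [h, one_smul]⟩
    · exact ⟨_, mul_mem hT.negOne_mem ha, fun x => by rw [ap_mul, ap_negOne, h, neg_one_smul]⟩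
  have hkc : kron e P a b = kron e P c (1 : GL (Fin 4) F) := gl_ext_pt e P fun x z => by
    rw [ap_kron, ap_kron, ap_one, hbz, hca, pt_smul_left, pt_smul_right]
  refine ⟨c, hc, ?_, hkc⟩
  have h := hfix y₁
  rw [hkc, ap_kron, ap_one] at h
  exact pt_inj_left e P (fun h0 => fw.y₁₁ (by rw [h0, hT.sym₂.zero_left])) h

include hM in
/-- The centraliser of a factorwise half-turn lies in the stabiliser. -/
theorem mem_of_comm_R {v : Fin 3 → F} (hv : f₁ v v ≠ 0) {g : GL ι F} (hg : g ∈ M)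
    (hgR : g * hT.R v = hT.R v * g) : g ∈ T₀ := by
  classical
  haveI : Fintype F := Fintype.ofFinite F
  obtain ⟨p, hp⟩ := CharP.exists F
  haveI hpF : Fact p.Prime := ⟨CharP.char_is_prime F p⟩
  have hg₂ := hT.sym₂
  have h2 := hT.two_ne
  obtain ⟨w, w', y₁, y₂, fw⟩ := hT.exists_iso₂
  have hw0 := hT.w_ne fw
  have hwy : f₂ w y₁ = 0 := hg₂.eq_zero_comm.mp fw.y₁w
  let K : Subgroup (GL ι F) :=
    { carrier := {k | k ∈ M ∧ k * hT.R v = hT.R v * k ∧ ∀ z, ap k (pt e P v z) = pt e P v z}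
      one_mem' := ⟨one_mem M, by rw [one_mul, mul_one], fun z => ap_one _⟩
      mul_mem' := fun {a b} ha hb => ⟨mul_mem ha.1 hb.1, by
        rw [mul_assoc, hb.2.1, ← mul_assoc, ha.2.1, mul_assoc],
        fun z => by rw [ap_mul, hb.2.2, ha.2.2]⟩
      inv_mem' := fun {a} ha => ⟨inv_mem ha.1, ((show Commute a (hT.R v) from ha.2.1).inv_left).eq,
        fun z => ap_injective a (by rw [ap_ap_inv, ha.2.2])⟩ }
  let A : Subgroup (GL ι F) :=
    { carrier := {k | ∃ y, ∃ hy : f₂ w y = 0, f₂ y w' = 0 ∧ k = hT.xs w y fw.ww hy}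
      one_mem' := ⟨0, hg₂.zero_right w, hg₂.zero_left w', (hT.xs_zero fw.ww _).symm⟩
      mul_mem' := by
        rintro _ _ ⟨y, hy, hyv, rfl⟩ ⟨y', hy', hyv', rfl⟩
        exact ⟨y + y', _, by rw [hg₂.add_left, hyv, hyv', add_zero], hT.xs_mul fw.ww hy hy'⟩
      inv_mem' := by
        rintro _ ⟨y, hy, hyv, rfl⟩
        refine ⟨-y, by rw [hg₂.neg_right, hy, neg_zero], by rw [hg₂.neg_left, hyv, neg_zero], ?_⟩
        refine inv_eq_of_mul_eq_one_right ?_
        rw [hT.xs_mul, hT.xs_congr fw.ww _ (add_neg_cancel y), hT.xs_zero] }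
  have hAM : A ≤ M := by
    rintro _ ⟨y, hy, -, rfl⟩
    exact hM.le (hT.xs_mem fw.ww hy)
  have hARcomm : ∀ {y} (hy : f₂ w y = 0), hT.xs w y fw.ww hy * hT.R v =
      hT.R v * hT.xs w y fw.ww hy := fun hy => by
    simp only [xs, R, kron_mul, mul_one, one_mul]
  have hAnorm : ∀ a ∈ A, ∀ k ∈ K, a * k * a⁻¹ ∈ K := by
    rintro a ha k hk
    obtain ⟨y, hy, -, rfl⟩ := ha
    set x := hT.xs w y fw.ww hy with hx
    have hxM : x ∈ M := hM.le (hT.xs_mem fw.ww hy)
    refine ⟨mul_mem (mul_mem hxM hk.1) (inv_mem hxM), ?_, fun z => ?_⟩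
    · have e1 : Commute x (hT.R v) := hARcomm hy
      exact ((e1.mul_left hk.2.1).mul_left e1.inv_left).eq
    · rw [ap_mul, ap_mul, hx, xs, kron_inv, inv_one, ap_kron, ap_one, hk.2.2, ap_kron, ap_one,
        ap_ap_inv]
  have hAN : A ≤ Subgroup.normalizer (K : Set (GL ι F)) := by
    intro a ha
    rw [Subgroup.mem_normalizer_iff]
    intro n
    refine ⟨hAnorm a ha n, fun h => ?_⟩
    have := hAnorm a⁻¹ (inv_mem ha) _ h
    rw [inv_inv] at this
    simpa [mul_assoc] using this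
  have hA : Cfsg.IsElementaryAbelian p A := by
    refine ⟨⟨⟨?_⟩⟩, ?_⟩
    · rintro ⟨_, y, hy, hyv, rfl⟩ ⟨_, y', hy', hyv', rfl⟩
      apply Subtype.ext
      show hT.xs w y fw.ww hy * hT.xs w y' fw.ww hy' = hT.xs w y' fw.ww hy' * hT.xs w y fw.ww hy
      rw [hT.xs_mul, hT.xs_mul]
      exact hT.xs_congr fw.ww _ (add_comm y y')
    · rintro _ ⟨y, hy, -, rfl⟩
      exact hT.xs_pow_char p fw.ww hy
  have hA2 : p ^ 2 ≤ Nat.card A := by
    let φ : F × F → A := fun c => ⟨hT.xs w (c.1 • y₁ + c.2 • y₂) fw.ww (by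
        simp [hg₂.add_right, hg₂.smul_right, hwy, hg₂.eq_zero_comm.mp fw.y₂w]),
      _, _, by simp [hg₂.add_left, hg₂.smul_left, fw.y₁v, fw.y₂v], rfl⟩
    have hφ : Function.Injective φ := by
      intro c c' h
      obtain ⟨d, hd⟩ := hT.exists_aniso₁
      have hd0 : d ≠ 0 := fun h0 => hd (by rw [h0, hT.sym₁.zero_left])
      have h' := congrArg (fun k : A => ap (k : GL ι F) (pt e P d w')) h
      simp only [φ, xs, ap_kron, ap_one] at h'
      have h1 := pt_inj_right e P hd0 h'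
      have e1 := congrArg (fun z => f₂ z y₁) h1
      have e2 := congrArg (fun z => f₂ z y₂) h1
      simp only [hg₂.ap_rho, hg₂.add_left, hg₂.sub_left, hg₂.smul_left, hg₂.symm w' w, fw.wv,
        fw.y₁v, fw.y₂v, fw.y₁₂, hwy, hg₂.eq_zero_comm.mp fw.y₁v, hg₂.eq_zero_comm.mp fw.y₂v,
        hg₂.eq_zero_comm.mp fw.y₂w, hg₂.eq_zero_comm.mp fw.y₁₂, mul_zero, zero_mul, sub_zero,
        one_mul, add_zero, zero_add] at e1 e2
      exact Prod.ext (mul_right_cancel₀ fw.y₁₁ e1) (mul_right_cancel₀ fw.y₂₂ e2)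
    have hle := Nat.card_le_card_of_injective φ hφ
    rw [Nat.card_prod, Nat.card_eq_fintype_card (α := F)] at hle
    obtain ⟨n, -, hn⟩ := FiniteField.card F p
    have : p ≤ Fintype.card F := by
      rw [hn]; exact Nat.le_self_pow n.ne_zero p
    calc p ^ 2 ≤ Fintype.card F * Fintype.card F := by rw [pow_two]; exact Nat.mul_le_mul this this
      _ ≤ _ := hle
  have hyTA : ∀ {k : GL ι F}, k ∈ K → ∀ {y} (hy : f₂ w y = 0), f₂ y y ≠ 0 → f₂ y w' = 0 →
      k * hT.xs w y fw.ww hy = hT.xs w y fw.ww hy * k → k ∈ T₀ := fun hk _ hy hyy hyv h =>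
    hT.mem_of_slice hM hk.1 fw.ww hw0 fw.ww hw0 (hT.slice_of_comm fw hy hyy hyv h)
  have hKp : ¬ p ∣ Nat.card K := by
    intro hdvd
    obtain ⟨k₀, hk₀⟩ := exists_prime_orderOf_dvd_card' p hdvd
    let N := Subgroup.normalizer (K : Set (GL ι F))
    have hKN : K ≤ N := Subgroup.le_normalizer
    let Kn := K.subgroupOf N
    haveI : Kn.Normal := Subgroup.normal_in_normalizer
    have hAp : IsPGroup p (A.subgroupOf N) :=
      (Signalizer.isPGroup_of_isElementaryAbelian hA).comap_subtype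
    obtain ⟨S, hS⟩ := hAp.exists_le_sylow
    let k₁ : N := ⟨k₀, hKN k₀.2⟩
    have hk₁ : orderOf k₁ = p := by
      rw [← hk₀, ← orderOf_injective N.subtype Subtype.val_injective k₁,
        ← orderOf_injective K.subtype Subtype.val_injective k₀]
      rfl
    have hz1 : IsPGroup p (Subgroup.zpowers k₁) :=
      IsPGroup.of_card (n := 1) (by rw [Nat.card_zpowers, hk₁, pow_one])
    obtain ⟨S', hS'⟩ := hz1.exists_le_sylow
    obtain ⟨n, hn⟩ := MulAction.exists_smul_eq N S' S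
    have hmem : n * k₁ * n⁻¹ ∈ (S : Subgroup N) := by
      rw [← hn]
      exact ⟨k₁, hS' (Subgroup.mem_zpowers k₁), rfl⟩
    have hmemK : n * k₁ * n⁻¹ ∈ Kn :=
      (inferInstance : Kn.Normal).conj_mem k₁ (Subgroup.mem_subgroupOf.mpr k₀.2) n
    have hne : Kn.subgroupOf (S : Subgroup N) ≠ ⊥ := by
      intro h0
      have : (⟨_, hmem⟩ : (S : Subgroup N)) ∈ Kn.subgroupOf (S : Subgroup N) :=
        Subgroup.mem_subgroupOf.mpr hmemK
      rw [h0, Subgroup.mem_bot, Subtype.ext_iff, OneMemClass.coe_one, conj_eq_one_iff] at this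
      rw [this, orderOf_one] at hk₁
      exact hpF.out.ne_one hk₁.symm
    obtain ⟨z, hzK, hz1', hzc⟩ := TwoGroups.exists_mem_center_of_normal S.isPGroup' hne
    set k : GL ι F := ((z : N) : GL ι F) with hk
    have hkK : k ∈ K := Subgroup.mem_subgroupOf.mp (Subgroup.mem_subgroupOf.mp hzK)
    have hkA : ∀ a ∈ A, k * a = a * k := fun a ha => by
      have h := Subgroup.mem_center_iff.mp hzc ⟨⟨a, hAN ha⟩, hS (Subgroup.mem_subgroupOf.mpr ha)⟩
      exact (congrArg (fun s : (S : Subgroup N) => ((s : N) : GL ι F)) h).symm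
    obtain ⟨c, hc, hcv, hkc⟩ := hT.left_of_fix hv
      (hyTA hkK hwy fw.y₁₁ fw.y₁v (hkA _ ⟨y₁, hwy, fw.y₁v, rfl⟩)) (hM.le_isom hkK.1) hkK.2.2
    obtain ⟨j, hj⟩ := S.isPGroup' z
    have hcp : c ^ p ^ j = 1 := by
      let φ : GL (Fin 3) F →* GL ι F :=
        MonoidHom.mk' (fun a => kron e P a (1 : GL (Fin 4) F)) fun a a' => by
          rw [kron_mul, one_mul]
      refine kron_left_inj (e := e) (P := P) (show φ (c ^ p ^ j) = φ 1 from ?_)
      rw [map_pow, map_one]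
      show kron e P c (1 : GL (Fin 4) F) ^ p ^ j = 1
      rw [← hkc]
      exact congrArg (fun s : (S : Subgroup N) => ((s : N) : GL ι F)) hj
    have hc1 := hT.eq_one_of_unip p hc hv hcv hcp
    refine hz1' (Subtype.ext (Subtype.ext ?_))
    show k = 1
    rw [hkc, hc1, kron_one]
  have hKT : ∀ k ∈ K, k ∈ T₀ := Signalizer.le_of_hyperplanes hA hA2 hAN hKp fun B hBA hB k hk => by
    obtain ⟨x, hxB, hx1⟩ : ∃ x ∈ B, x ≠ 1 := by
      refine B.ne_bot_iff_exists_ne_one.mp ?_ |>.elim fun a ha => ⟨a, a.2, fun h => ha (Subtype.ext h)⟩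
      intro h0
      rw [h0, Subgroup.card_bot, mul_one] at hB
      rw [← hB] at hA2
      exact absurd hA2 (not_le.mpr (by
        rw [pow_two]; exact lt_mul_of_one_lt_left hpF.out.pos hpF.out.one_lt))
    obtain ⟨y, hy, hyv, rfl⟩ := hBA hxB
    refine hyTA hk.1 hy (fun h0 => hx1 ?_) hyv (Subgroup.mem_centralizer_iff.mp hk.2 _ hxB).symm
    rw [hT.xs_congr fw.ww _ (hT.eq_zero_of_aniso fw.ww fw.wv (hg₂.eq_zero_comm.mp hy) hyv h0),
      hT.xs_zero]
  -- the action of `g` on the slice of `v`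
  obtain ⟨b, hb⟩ := hT.exists_slice_map hv hv (g := g) (by rw [hgR, mul_inv_cancel_right])
  have hgI := hM.le_isom hg
  have hbI : b ∈ isom f₂ := mem_isom_iff.mpr fun z z' => mul_left_cancel₀ hv (by
    rw [← hT.polar_pt, ← hb, ← hb, Orth.polar_ap hgI, hT.polar_pt])
  have hbw : f₂ (ap b w) (ap b w) = 0 := by rw [mem_isom_iff.mp hbI, fw.ww]
  have hby : f₂ (ap b w) (ap b y₁) = 0 := by rw [mem_isom_iff.mp hbI, hwy]
  set x := hT.xs w y₁ fw.ww hwy with hx
  set x' := hT.xs (ap b w) (ap b y₁) hbw hby with hx'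
  set B : GL ι F := kron e P (1 : GL (Fin 3) F) b with hB
  have hxx' : B * x * B⁻¹ = x' := by
    rw [hB, hx, hx', xs, xs, kron_inv, kron_mul, kron_mul, inv_one, one_mul, one_mul]
    congr 1
    refine gl_ext fun z => ?_
    obtain ⟨z, rfl⟩ : ∃ z', ap b z' = z := ⟨_, ap_ap_inv b z⟩
    rw [ap_mul, ap_mul, ap_inv_ap, hg₂.ap_rho, hg₂.ap_rho, ap_sub, ap_add, ap_smul, ap_smul]
    simp only [mem_isom_iff.mp hbI]
  have hxM : x ∈ M := hM.le (hT.xs_mem fw.ww hwy)
  have hx'M : x' ∈ M := hM.le (hT.xs_mem hbw hby)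
  have hkK : g * x * g⁻¹ * x'⁻¹ ∈ K := by
    refine ⟨mul_mem (mul_mem (mul_mem hg hxM) (inv_mem hg)) (inv_mem hx'M), ?_, fun z => ?_⟩
    · have e1 : Commute x' (hT.R v) := by
        show x' * hT.R v = hT.R v * x'
        simp only [hx', xs, R, kron_mul, mul_one, one_mul]
      have e2 : Commute g (hT.R v) := hgR
      exact (((e2.mul_left (hARcomm hwy)).mul_left e2.inv_left).mul_left e1.inv_left).eq
    · obtain ⟨z, rfl⟩ : ∃ z', ap b z' = z := ⟨_, ap_ap_inv b z⟩
      rw [← hxx', _root_.mul_inv_rev, _root_.mul_inv_rev, inv_inv]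
      simp only [ap_mul, hB, hx, xs, kron_inv, inv_one, ap_kron, ap_one, ap_inv_ap]
      rw [← hb, ap_inv_ap, ap_kron, ap_one, ap_ap_inv, hb]
  obtain ⟨c, hc, hcv, hkc⟩ := hT.left_of_fix hv (hKT _ hkK) (hM.le_isom hkK.1) hkK.2.2
  have hgx : g * x * g⁻¹ = kron e P c (1 : GL (Fin 4) F) * x' := by rw [← hkc, inv_mul_cancel_right]
  have hc1 : c = 1 := by
    have hcx : Commute (kron e P c (1 : GL (Fin 4) F)) x' := by
      show _ * _ = _ * _
      simp only [hx', xs, kron_mul, mul_one, one_mul]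
    have h1 : (g * x * g⁻¹) ^ p = 1 := by
      rw [conj_pow, hx, hT.xs_pow_char p fw.ww hwy, mul_one, mul_inv_cancel]
    rw [hgx, hcx.mul_pow, hx', hT.xs_pow_char p hbw hby, mul_one] at h1
    let φ : GL (Fin 3) F →* GL ι F :=
      MonoidHom.mk' (fun a => kron e P a (1 : GL (Fin 4) F)) fun a a' => by
        rw [kron_mul, one_mul]
    refine hT.eq_one_of_unip p hc hv hcv (k := 1) ?_
    refine kron_left_inj (e := e) (P := P) (show φ (c ^ p ^ 1) = φ 1 from ?_)
    rw [pow_one, map_pow, map_one]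
    exact h1
  rw [hc1, kron_one, one_mul] at hgx
  have hcomm : B⁻¹ * g * x = x * (B⁻¹ * g) := by
    have h1 : g * x = x' * g := mul_inv_eq_iff_eq_mul.mp hgx
    rw [mul_assoc, h1, ← hxx']
    group
  refine hT.mem_of_slice hM hg fw.ww hw0 hbw (ap_ne_zero b hw0) fun u => ?_
  obtain ⟨u', hu'⟩ := hT.slice_of_comm fw hwy fw.y₁₁ fw.y₁v hcomm u
  refine ⟨u', ?_⟩
  have h := congrArg (ap B) hu'
  rwa [ap_mul, ap_ap_inv, hB, ap_kron, ap_one] at h

end Data

end CfsgLib.Geometric.OrthThreeFour
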