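import Cfsg.Agent.Lib.Geometric.OrthThreeFour.Centraliser
import Cfsg.Agent.Lib.Geometric.Dihedral
import Mathlib.NumberTheory.LegendreSymbol.QuadraticChar.Basic

/-!
The stabiliser in `omegaGL` of a tensor decomposition into an orthogonal space of dimension three and
one of minus type in dimension four is maximal.
-/

set_option autoImplicit false
set_option linter.unusedSectionVars false

namespace CfsgLib.Geometric.OrthThreeFour

open Matrix QuadraticMap Tensor

variable {ι : Type} [Fintype ι] [DecidableEq ι] {F : Type*} [Field F]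
variable {Q : QuadraticForm F (ι → F)} {e : ι ≃ Fin 3 × Fin 4} {P : GL ι F}
  {f₁ : (Fin 3 → F) → (Fin 3 → F) → F} {f₂ : (Fin 4 → F) → (Fin 4 → F) → F}

local notation "T₀" => Cfsg.Geo.tensorProductSubgroup 3 4 e P

namespace Data

variable (hT : Data Q e P f₁ f₂) [Finite F]
include hT

lemma exists_scale_move {v v' : Fin 3 → F} (hv : f₁ v v ≠ 0) {c : F}
    (h : f₁ v v = c * c * f₁ v' v') : ∃ a ∈ isom f₁, ap a v = c • v' := by
  have hc : f₁ (c • v') (c • v') = f₁ v v := by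
    rw [hT.sym₁.smul_left, hT.sym₁.smul_right, h]; ring
  obtain ⟨a, ha, e1, -⟩ := hT.exists_rf_move (S := isom f₁) (fun u _ => hT.rf_mem u) (x := v)
    (y := c • v') (by rw [hc]; exact hv) hc.symm
  exact ⟨a, ha, e1⟩

/-- Two vectors with isotropic vectors in their orthogonals have values in one square class. -/
lemma square_of_iso {v v' x y : Fin 3 → F} (hv : f₁ v v ≠ 0) (hv' : f₁ v' v' ≠ 0)
    (hx0 : x ≠ 0) (hxx : f₁ x x = 0) (hxv : f₁ x v = 0)
    (hy0 : y ≠ 0) (hyy : f₁ y y = 0) (hyv : f₁ y v' = 0) :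
    ∃ c : F, f₁ v v = c * c * f₁ v' v' := by
  have hg := hT.sym₁
  have h2 := hT.two_ne
  obtain ⟨x', fx⟩ := hT.exists_isoFrame_perp hv hxx hx0 hxv
  obtain ⟨y', fy⟩ := hT.exists_isoFrame_perp hv' hyy hy0 hyv
  have hsum : ∀ {x x' v : Fin 3 → F}, IsoFrame f₁ x x' v →
      f₁ (x + x') (x + x') = 2 ∧ f₁ (x - x') (x - x') = -2 ∧ f₁ (x - x') (x + x') = 0 ∧
        f₁ v (x + x') = 0 ∧ f₁ v (x - x') = 0 := fun {x x' v} fu => by
    simp only [hg.add_left, hg.add_right, hg.sub_left, hg.sub_right, fu.uu, fu.vv, fu.uv,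
      hg.symm x' x, fu.du, fu.dv]
    norm_num
  obtain ⟨hx1, hx2, hx3, hx4, hx5⟩ := hsum fx
  obtain ⟨hy1, hy2, hy3, hy4, hy5⟩ := hsum fy
  obtain ⟨a, ha, e1, -⟩ := hT.exists_rf_move (S := isom f₁) (fun u _ => hT.rf_mem u) (x := x + x')
    (y := y + y') (by rw [hy1]; exact h2) (by rw [hx1, hy1])
  have hI := mem_isom_iff.mp ha
  obtain ⟨b, hb, e2, e3⟩ := hT.exists_rf_move (S := isom f₁) (fun u _ => hT.rf_mem u)
    (x := ap a (x - x')) (y := y - y') (by rw [hy2]; exact neg_ne_zero.mpr h2)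
    (by rw [hI, hx2, hy2])
  have hJ := mem_isom_iff.mp (mul_mem hb ha : b * a ∈ isom f₁)
  have k1 : ap (b * a) (x + x') = y + y' := by
    rw [ap_mul, e1]
    refine e3 _ ?_ (by rw [hg.symm, hy3])
    conv_lhs => rw [← e1]
    rw [hI, hg.symm, hx3]
  have k2 : ap (b * a) (x - x') = y - y' := by rw [ap_mul, e2]
  have a1 : f₁ (ap (b * a) v) (y + y') = 0 := by rw [← k1, hJ, hx4]
  have a2 : f₁ (ap (b * a) v) (y - y') = 0 := by rw [← k2, hJ, hx5]
  simp only [hg.add_right, hg.sub_right] at a1 a2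
  have b1 : f₁ (ap (b * a) v) y = 0 :=
    (mul_eq_zero.mp (show (2 : F) * f₁ (ap (b * a) v) y = 0 by linear_combination a1 + a2)
      ).resolve_left h2
  have b2 : f₁ (ap (b * a) v) y' = 0 := by linear_combination a1 - b1
  refine ⟨f₁ (ap (b * a) v) v' / f₁ v' v', ?_⟩
  conv_lhs => rw [← hJ v v]
  conv_lhs => rw [fy.dec (ap (b * a) v), b1, b2]
  simp only [zero_smul, zero_add, hg.smul_left, hg.smul_right]
  ring

omit hT in
lemma isSquare_mul_of_not' {a b : F} (ha : ¬ IsSquare a) (hb : ¬ IsSquare b) :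
    IsSquare (a * b) := by
  classical
  haveI : Fintype F := Fintype.ofFinite F
  have ha0 : a ≠ 0 := fun h => ha (h ▸ IsSquare.zero)
  have hb0 : b ≠ 0 := fun h => hb (h ▸ IsSquare.zero)
  rw [← quadraticChar_one_iff_isSquare (mul_ne_zero ha0 hb0), map_mul,
    (quadraticChar_neg_one_iff_not_isSquare).mpr ha,
    (quadraticChar_neg_one_iff_not_isSquare).mpr hb]
  norm_num

variable {M : Subgroup (GL ι F)} (hM : hT.Small M)

/-- An involution of the first factor with a fixed vector is a half-turn up to sign. -/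
lemma exists_half {d : GL (Fin 3) F} (hd : d ∈ isom f₁) (hdd : d * d = 1) (hd1 : d ≠ 1)
    (hd2 : d ≠ negOne) : ∃ m, f₁ m m ≠ 0 ∧ (d = hT.half m ∨ d = negOne * hT.half m) := by
  have hg := hT.sym₁
  have h2 := hT.two_ne
  have hI := mem_isom_iff.mp hd
  have hinv : ∀ x, ap d (ap d x) = x := fun x => by rw [← ap_mul, hdd, ap_one]
  let E : F → Submodule F (Fin 3 → F) := fun s =>
    LinearMap.ker ((apEquiv d).toLinearMap - s • LinearMap.id)
  have hE : ∀ {s x}, x ∈ E s ↔ ap d x = s • x := fun {s x} => by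
    simp [E, sub_eq_zero]
  have horth : ∀ {x y}, x ∈ E 1 → y ∈ E (-1) → f₁ x y = 0 := by
    intro x y hx hy
    have h := hI x y
    rw [hE.mp hx, hE.mp hy, hg.smul_left, hg.smul_right] at h
    exact (mul_eq_zero.mp (show (2 : F) * f₁ x y = 0 by linear_combination -h)).resolve_left h2
  have haniso : ∀ {s : F}, s * s = 1 → (∃ x, x ∈ E s ∧ x ≠ 0) → ∃ z ∈ E s, f₁ z z ≠ 0 := by
    rintro s hs ⟨x, hx, hx0⟩
    obtain ⟨y, hy⟩ := hg.exists_ne hx0
    refine hg.exists_aniso_in hx (y := y + s • ap d y) (hE.mpr ?_) ?_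
    · rw [ap_add, ap_smul, hinv, smul_add, smul_smul, hs, one_smul, add_comm]
    · rw [hg.add_right, hg.smul_right]
      have : f₁ x (ap d y) = s * f₁ x y := by
        conv_rhs => rw [← hI x y, hE.mp hx, hg.smul_left]
        rw [← mul_assoc, hs, one_mul]
      rw [this, ← mul_assoc, hs, one_mul, ← two_mul]
      exact mul_ne_zero h2 hy
  obtain ⟨p, hp, hpp⟩ := haniso (s := 1) (one_mul 1) (by
    by_contra hc
    push Not at hc
    refine hd2 (gl_ext fun x => ?_)
    have h := hc (x + ap d x) (hE.mpr (by rw [ap_add, hinv, one_smul, add_comm]))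
    rw [ap_negOne]
    exact eq_neg_of_add_eq_zero_right h)
  obtain ⟨q, hq, hqq⟩ := haniso (s := -1) (by ring) (by
    by_contra hc
    push Not at hc
    refine hd1 (gl_ext fun x => ?_)
    have h := hc (x - ap d x) (hE.mpr (by rw [ap_sub, hinv, neg_one_smul, neg_sub]))
    rw [ap_one]
    exact (sub_eq_zero.mp h).symm)
  have hqp : f₁ q p = 0 := by rw [hg.symm]; exact horth hp hq
  obtain ⟨r, fr⟩ := hT.exists_frame_of_pair hpp hqq hqp
  have dp : ap d p = p := by rw [hE.mp hp, one_smul]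
  have dq : ap d q = -q := by rw [hE.mp hq, neg_one_smul]
  have a1 : f₁ (ap d r) p = 0 := by
    conv_lhs => rw [← dp]
    rw [hI, fr.qv]
  have a2 : f₁ (ap d r) q = 0 := by
    rw [← neg_neg q, ← dq, hg.neg_right, hI, fr.qp, neg_zero]
  set s := f₁ (ap d r) r / f₁ r r with hs
  have dr : ap d r = s • r := by
    conv_lhs => rw [fr.dec (ap d r), a1, a2, zero_div, zero_div, zero_smul, zero_smul, zero_add,
      zero_add]
  have hss : s * s = 1 := by
    have h := hI r r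
    rw [dr, hg.smul_left, hg.smul_right] at h
    exact mul_right_cancel₀ fr.hq (by linear_combination h)
  rcases mul_self_eq_one_iff.mp hss with h1 | h1
  · refine ⟨q, hqq, Or.inr (gl_ext fun x => ?_)⟩
    rw [fr.dec x]
    simp only [ap_add, ap_smul, ap_mul, ap_negOne, dp, dq, dr, h1, one_smul,
      hT.ap_half_self hqq, hT.ap_half_perp hqq (x := p) (by rw [hg.symm, hqp]),
      hT.ap_half_perp hqq (x := r) fr.qp, neg_neg]
  · refine ⟨p, hpp, Or.inl (gl_ext fun x => ?_)⟩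
    rw [fr.dec x]
    simp only [ap_add, ap_smul, dp, dq, dr, h1, neg_one_smul, hT.ap_half_self hpp,
      hT.ap_half_perp hpp (x := q) hqp, hT.ap_half_perp hpp (x := r) fr.qv]

include hM

/-- A conjugate of a half-turn in the stabiliser is a half-turn. -/
lemma exists_eq_R {v : Fin 3 → F} (hv : f₁ v v ≠ 0) {g : GL ι F} (hg : g ∈ M)
    (h : g * hT.R v * g⁻¹ ∈ T₀) : ∃ m, f₁ m m ≠ 0 ∧ g * hT.R v * g⁻¹ = hT.R m := by
  have hg₁ := hT.sym₁
  have h2 := hT.two_ne
  set y := g * hT.R v * g⁻¹ with hy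
  have hyI : y ∈ Cfsg.isometryGroup F (⇑Q) :=
    hM.le_isom (mul_mem (mul_mem hg (hM.le (hT.R_mem hv))) (inv_mem hg))
  have hy2 : y * y = 1 := by rw [hy, conj_mul, hT.R_mul_self hv, mul_one, mul_inv_cancel]
  obtain ⟨a, ha, b, hb, hab⟩ := hT.factor h hyI
  obtain ⟨w, w', y₁, y₂, fw⟩ := hT.exists_iso₂
  obtain ⟨d₀, hd₀⟩ := hT.exists_aniso₁
  have hpp : ∀ x z, pt e P (ap a (ap a x)) (ap b (ap b z)) = pt e P x z := fun x z => by
    rw [← ap_kron, ← ap_kron, ← hab, ← ap_mul, hy2, ap_one]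
  have hy₁0 : y₁ ≠ 0 := fun h0 => fw.y₁₁ (by rw [h0, hT.sym₂.zero_left])
  set t := f₂ (ap b (ap b y₁)) y₁ / f₂ y₁ y₁ with ht
  have hat : ∀ x, t • ap a (ap a x) = x := fun x => by
    have := congrArg (hT.cc y₁) (hpp x y₁)
    rw [cc_pt, cc_pt] at this
    rw [ht, div_eq_inv_mul, ← smul_smul, this, inv_smul_smul₀ fw.y₁₁]
  have ht0 : t ≠ 0 := fun h0 => hd₀ (by
    have := hat d₀
    rw [h0, zero_smul] at this
    rw [← this, hg₁.zero_left])
  have haa : ∀ x, ap a (ap a x) = x := by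
    have hI := mem_isom_iff.mp ha
    have htt : t * t = 1 := by
      have h1 := hI (ap a d₀) (ap a d₀)
      rw [hI d₀ d₀] at h1
      have h3 := congrArg (fun x => f₁ x x) (hat d₀)
      simp only [hg₁.smul_left, hg₁.smul_right, h1] at h3
      exact mul_right_cancel₀ hd₀ (by linear_combination h3)
    have h3 : t ^ 3 = 1 := by
      have hl : (apEquiv a).toLinearMap.comp (apEquiv a).toLinearMap = t⁻¹ • LinearMap.id :=
        LinearMap.ext fun x => by
          simp only [LinearMap.comp_apply, LinearEquiv.coe_coe, apEquiv_apply,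
            LinearMap.smul_apply, LinearMap.id_apply]
          conv_rhs => rw [← hat x]
          rw [inv_smul_smul₀ ht0]
      have hdet := congrArg (fun L => (LinearMap.toMatrix' L).det) hl
      simp only [LinearMap.toMatrix'_comp, Matrix.det_mul, map_smul, LinearMap.toMatrix'_id,
        Matrix.det_smul, Matrix.det_one, Fintype.card_fin, mul_one] at hdet
      rw [hT.det_sq (apEquiv a).toLinearMap (ν := 1) fun x x' => by rw [one_mul]; exact hI x x',
        one_pow, inv_pow] at hdet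
      exact inv_eq_one.mp hdet.symm
    have ht1 : t = 1 := by linear_combination h3 - t * htt
    intro x
    simpa [ht1] using hat x
  have hbb : ∀ z, ap b (ap b z) = z := fun z => pt_inj_right e P (x := d₀)
    (fun h0 => hd₀ (by rw [h0, hg₁.zero_left])) (by simpa [haa] using hpp d₀ z)
  have haa' : a * a = 1 := gl_ext fun x => by rw [ap_mul, haa, ap_one]
  obtain ⟨bv, hbv⟩ : ∃ b' : GL (Fin 4) F, ∀ z, ap b' z = -ap b z := ⟨ofEquiv ((apEquiv b).trans
    (LinearEquiv.neg F)), fun z => by rw [ap_ofEquiv]; rfl⟩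
  have hneg : ∀ (a' : GL (Fin 3) F), a = negOne * a' → y = kron e P a' bv := fun a' h' => by
    rw [hab, h']
    refine gl_ext_pt e P fun x z => ?_
    rw [ap_kron, ap_kron, ap_mul, ap_negOne, hbv, pt_neg_right, ← neg_one_smul F (ap a' x),
      pt_smul_left, neg_one_smul]
  have hbvv : ∀ z, ap bv (ap bv z) = z := fun z => by
    rw [hbv, hbv, ← neg_one_smul F (ap b z), ap_smul, hbb, neg_one_smul, neg_neg]
  obtain ⟨s, m, hm, a', b', hb', hyab, hss, hdec⟩ : ∃ s : F, ∃ m, f₁ m m ≠ 0 ∧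
      ∃ (a' : GL (Fin 3) F) (b' : GL (Fin 4) F), (∀ z, ap b' (ap b' z) = z) ∧
        y = kron e P a' b' ∧ (s = 1 ∧ a' = 1 ∨ s = -1 ∧ a' = hT.half m) ∧
        ∀ x, ap a' x = s • x + ((1 - s) * f₁ x m / f₁ m m) • m := by
    have hhalf : ∀ {m}, f₁ m m ≠ 0 → ∀ x, ap (hT.half m) x =
        (-1 : F) • x + ((1 - (-1)) * f₁ x m / f₁ m m) • m := fun hm x => by
      rw [hT.ap_half hm, neg_one_smul]; norm_num
    have hone : ∀ x, ap (1 : GL (Fin 3) F) x =
        (1 : F) • x + ((1 - 1) * f₁ x d₀ / f₁ d₀ d₀) • d₀ := fun x => by simp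
    by_cases h1 : a = 1
    · exact ⟨1, d₀, hd₀, 1, b, hbb, by rw [hab, h1], Or.inl ⟨rfl, rfl⟩, hone⟩
    by_cases h1' : a = negOne
    · exact ⟨1, d₀, hd₀, 1, bv, hbvv, hneg 1 (by rw [h1', mul_one]), Or.inl ⟨rfl, rfl⟩, hone⟩
    obtain ⟨m, hm, h3 | h3⟩ := hT.exists_half ha haa' h1 h1'
    · exact ⟨-1, m, hm, _, b, hbb, by rw [hab, h3], Or.inr ⟨rfl, rfl⟩, hhalf hm⟩
    · exact ⟨-1, m, hm, _, bv, hbvv, hneg _ h3, Or.inr ⟨rfl, rfl⟩, hhalf hm⟩
  obtain ⟨p, q, fr⟩ := hT.exists_frame hm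
  let E : F → Submodule F (Fin 4 → F) := fun r =>
    LinearMap.ker ((apEquiv b').toLinearMap - r • LinearMap.id)
  have hE : ∀ {r z}, z ∈ E r ↔ ap b' z = r • z := fun {r z} => by simp [E, sub_eq_zero]
  have hv0 : v ≠ 0 := fun h0 => hv (by rw [h0, hg₁.zero_left])
  have hm' : ap a' m = m := by
    rw [hdec, mul_div_assoc, div_self hm, mul_one, ← add_smul]; simp
  have hp' : ap a' p = s • p := by rw [hdec, fr.pv]; simp
  have hq' : ap a' q = s • q := by rw [hdec, fr.qv]; simp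
  have hss1 : s * s = 1 := by rcases hss with ⟨h', -⟩ | ⟨h', -⟩ <;> simp [h']
  have hddy : ∀ X n r, r * r = 1 → (∀ x, f₁ (ap a' x) n = r * f₁ x n) →
      ap b' (hT.dd n (ap y X)) = r • hT.dd n X := fun X n r hr hn => by
    have hlin : (apEquiv b').toLinearMap.comp ((hT.dd n).comp (apEquiv y).toLinearMap) =
        r • hT.dd n := ext_pt e P fun x z => by
      simp only [LinearMap.comp_apply, LinearEquiv.coe_coe, apEquiv_apply, LinearMap.smul_apply,
        hyab, ap_kron, dd_pt, hn, ap_smul, hb', smul_smul]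
    exact LinearMap.congr_fun hlin X
  have hadj : ∀ n r, ap a' n = r • n → ∀ x, f₁ (ap a' x) n = r * f₁ x n := fun n r hn x => by
    have ha' : a' ∈ isom f₁ := by
      rcases hss with ⟨-, h'⟩ | ⟨-, h'⟩ <;> rw [h']
      exacts [one_mem _, hT.half_mem m]
    have haa'' : a' * a' = 1 := by
      rcases hss with ⟨-, h'⟩ | ⟨-, h'⟩ <;> rw [h']
      exacts [one_mul 1, hT.half_mul_self hm]
    conv_lhs => rw [← mem_isom_iff.mp ha', ← ap_mul, haa'', ap_one, hn, hg₁.smul_right]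
  -- the fixed space, seen twice
  let W₃ := E 1 × E s × E s
  let Φ : W₃ →ₗ[F] (ι → F) := (ptr e P m).comp ((E 1).subtype.comp (LinearMap.fst F _ _)) +
    (ptr e P p).comp ((E s).subtype.comp ((LinearMap.fst F _ _).comp (LinearMap.snd F _ _))) +
    (ptr e P q).comp ((E s).subtype.comp ((LinearMap.snd F _ _).comp (LinearMap.snd F _ _)))
  have hΦapp : ∀ c, Φ c = pt e P m c.1 + pt e P p c.2.1 + pt e P q c.2.2 := fun c => rfl
  have hΦfix : ∀ c, ap y (Φ c) = Φ c := fun c => by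
    rw [hΦapp, hyab, ap_add, ap_add, ap_kron, ap_kron, ap_kron, hm', hp', hq', hE.mp c.1.2,
      hE.mp c.2.1.2, hE.mp c.2.2.2, one_smul, pt_smul_left, pt_smul_right, smul_smul,
      pt_smul_left, pt_smul_right, smul_smul, hss1, one_smul, one_smul]
  have hexp : ∀ X, X = pt e P m ((f₁ m m)⁻¹ • hT.dd m X) + pt e P p ((f₁ p p)⁻¹ • hT.dd p X) +
      pt e P q ((f₁ q q)⁻¹ • hT.dd q X) := by
    intro X
    have h : LinearMap.id = (ptr e P m).comp ((f₁ m m)⁻¹ • hT.dd m) +
        (ptr e P p).comp ((f₁ p p)⁻¹ • hT.dd p) + (ptr e P q).comp ((f₁ q q)⁻¹ • hT.dd q) :=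
      ext_pt e P fun x z => by
        conv_lhs => rw [LinearMap.id_apply, fr.dec x]
        simp only [LinearMap.add_apply, LinearMap.comp_apply, LinearMap.smul_apply, dd_pt,
          ptr_apply, pt_add_left, pt_smul_left, pt_smul_right, smul_smul, div_eq_inv_mul]
    exact LinearMap.congr_fun h X
  have hΦinj : Function.Injective Φ := by
    rw [injective_iff_map_eq_zero]
    intro c hc
    rw [hΦapp] at hc
    have e1 := congrArg (hT.dd m) hc
    have e2 := congrArg (hT.dd p) hc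
    have e3 := congrArg (hT.dd q) hc
    simp only [map_add, map_zero, dd_pt, fr.pv, fr.qv, fr.qp, hg₁.eq_zero_comm.mp fr.pv,
      hg₁.eq_zero_comm.mp fr.qv, hg₁.eq_zero_comm.mp fr.qp, zero_smul, add_zero, zero_add,
      smul_eq_zero, hm, fr.hp, fr.hq, false_or] at e1 e2 e3
    exact Prod.ext (Subtype.ext e1) (Prod.ext (Subtype.ext e2) (Subtype.ext e3))
  set J : (Fin 4 → F) →ₗ[F] (ι → F) := (apEquiv g).toLinearMap.comp (ptr e P v)
  have hJinj : Function.Injective J := fun z z' hzz =>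
    pt_inj_right e P hv0 (ap_injective g hzz)
  have hrange : LinearMap.range Φ = LinearMap.range J := by
    refine le_antisymm ?_ ?_
    · rintro _ ⟨c, rfl⟩
      have h1 := hΦfix c
      rw [hy, ap_mul, ap_mul] at h1
      have h1' : ap (hT.R v) (ap g⁻¹ (Φ c)) = ap g⁻¹ (Φ c) :=
        ap_injective g (by rw [h1, ap_ap_inv])
      refine ⟨(f₁ v v)⁻¹ • hT.dd v (ap g⁻¹ (Φ c)), ?_⟩
      show ap g (pt e P v _) = _
      rw [← hT.eq_of_R_fix hv h1', ap_ap_inv]
    · rintro _ ⟨z, rfl⟩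
      set X := ap g (pt e P v z)
      have hX : ap y X = X := by rw [hy, ap_mul, ap_mul, ap_inv_ap, hT.R_fix hv]
      have hmem : ∀ n r, r * r = 1 → ap a' n = r • n → hT.dd n X ∈ E r := fun n r hr hn => hE.mpr (by
        conv_lhs => rw [← hX]
        exact hddy X n r hr (hadj n r hn))
      refine ⟨(⟨_, (E 1).smul_mem (f₁ m m)⁻¹ (hmem m 1 (one_mul 1) (by rw [hm', one_smul]))⟩,
        ⟨_, (E s).smul_mem (f₁ p p)⁻¹ (hmem p s hss1 hp')⟩,
        ⟨_, (E s).smul_mem (f₁ q q)⁻¹ (hmem q s hss1 hq')⟩), ?_⟩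
      rw [hΦapp]
      exact (hexp X).symm
  have hdim : Module.finrank F (E 1) + 2 * Module.finrank F (E s) = 4 := by
    have h1 := LinearMap.finrank_range_of_inj hΦinj
    rw [hrange, LinearMap.finrank_range_of_inj hJinj, Module.finrank_fin_fun, Module.finrank_prod,
      Module.finrank_prod] at h1
    omega
  rcases hss with ⟨hs1, -⟩ | ⟨hs1, ha'⟩
  · rw [hs1] at hdim; omega
  rw [hs1] at hdim
  have hsum : Module.finrank F (E 1) + Module.finrank F (E (-1)) = 4 := by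
    have h := Submodule.finrank_sup_add_finrank_inf_eq (E 1) (E (-1))
    have htop : E 1 ⊔ E (-1) = ⊤ := eq_top_iff.mpr fun z _ => Submodule.mem_sup.mpr
      ⟨(2 : F)⁻¹ • (z + ap b' z), (E 1).smul_mem _ (hE.mpr (by
          rw [ap_add, hb', one_smul, add_comm])),
        (2 : F)⁻¹ • (z - ap b' z), (E (-1)).smul_mem _ (hE.mpr (by
          rw [ap_sub, hb', neg_one_smul, neg_sub])), by
        rw [← smul_add, show z + ap b' z + (z - ap b' z) = (2 : F) • z by module,
          inv_smul_smul₀ h2]⟩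
    have hbot : E 1 ⊓ E (-1) = ⊥ := eq_bot_iff.mpr fun z hz => by
      have := (hE.mp hz.1).symm.trans (hE.mp hz.2)
      rw [Submodule.mem_bot]
      exact (smul_eq_zero.mp (show (2 : F) • z = 0 by
        linear_combination (norm := module) this)).resolve_left h2
    rw [htop, hbot, finrank_top, finrank_bot, Module.finrank_fin_fun] at h
    omega
  have hE0 : E (-1) = ⊥ := Submodule.finrank_eq_zero.mp (by omega)
  have hb1 : b' = 1 := gl_ext fun z => by
    have : z - ap b' z ∈ E (-1) := hE.mpr (by rw [ap_sub, hb', neg_one_smul, neg_sub])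
    rw [hE0, Submodule.mem_bot, sub_eq_zero] at this
    rw [ap_one, ← this]
  exact ⟨m, hm, by rw [hyab, ha', hb1]; rfl⟩

/-- Conjugation by `M` keeps the presence of isotropic vectors in the orthogonal. -/
lemma iso_transfer {v v' x : Fin 3 → F} (hv : f₁ v v ≠ 0) (hv' : f₁ v' v' ≠ 0) {g : GL ι F}
    (hg : g ∈ M) (hgv : g * hT.R v * g⁻¹ = hT.R v') (hx0 : x ≠ 0) (hxx : f₁ x x = 0)
    (hxv : f₁ x v = 0) : ∃ y, y ≠ 0 ∧ f₁ y y = 0 ∧ f₁ y v' = 0 := by
  have hg₁ := hT.sym₁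
  have h2 := hT.two_ne
  obtain ⟨x', fx⟩ := hT.exists_isoFrame_perp hv hxx hx0 hxv
  obtain ⟨t, ht0, ht⟩ := hT.many
  have h1' : f₁ x' x = 1 := by rw [hg₁.symm, fx.uv]
  have hsum : ∀ r : F, f₁ (x + r • x') (x + r • x') = 2 * r := fun r => by
    simp only [hg₁.add_left, hg₁.add_right, hg₁.smul_left, hg₁.smul_right, fx.uu, fx.vv, fx.uv,
      h1']
    ring
  have hone : f₁ (x + x') (x + x') = 2 := by simpa using hsum 1
  have hone0 : f₁ (x + x') (x + x') ≠ 0 := by rw [hone]; exact h2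
  have hst : f₁ (x + t • x') (x + t • x') ≠ 0 := by rw [hsum]; exact mul_ne_zero h2 ht0
  set h := hT.half (x + t • x') * hT.half (x + x') with hh
  have hhx : ap h x = t⁻¹ • x := by
    rw [hh, ap_mul, hT.ap_half hone0 x, hone, hg₁.add_right, fx.uu, fx.uv, zero_add, mul_one,
      div_self h2, one_smul, neg_add_cancel_left, hT.ap_half hst, hsum, hg₁.add_right,
      hg₁.smul_right, h1', fx.vv, mul_zero, add_zero]
    match_scalars <;> field_simp <;> ring
  have hhv : ap h v = v := by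
    rw [hh, ap_mul, hT.ap_half_perp hone0 (by rw [hg₁.add_right, fx.du, fx.dv, add_zero]),
      ← neg_one_smul F v, ap_smul, hT.ap_half_perp hst (by
        rw [hg₁.add_right, hg₁.smul_right, fx.du, fx.dv, mul_zero, add_zero]), neg_one_smul,
      neg_neg]
  clear_value h
  set τ := kron e P h (1 : GL (Fin 4) F) with hτ
  have hτM : τ ∈ M := by
    have e1 : τ = hT.R (x + t • x') * hT.R (x + x') := by rw [hτ, hh, R, R, kron_mul, one_mul]
    rw [e1]
    exact mul_mem (hM.le (hT.R_mem hst)) (hM.le (hT.R_mem hone0))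
  set σ := g * τ * g⁻¹ with hσ
  have hσM : σ ∈ M := mul_mem (mul_mem hg hτM) (inv_mem hg)
  have hσR : σ * hT.R v' = hT.R v' * σ := by
    have hτR : Commute τ (hT.R v) := by
      show τ * hT.R v = hT.R v * τ
      rw [hτ, R, kron_mul, kron_mul, mul_one]
      congr 1
      refine gl_ext fun z => ?_
      have hI : f₁ (ap h z) v = f₁ z v := by
        conv_lhs => rw [← hhv]
        exact mem_isom_iff.mp (show h ∈ isom f₁ by
          rw [hh]; exact mul_mem (hT.half_mem _) (hT.half_mem _)) z v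
      rw [ap_mul, ap_mul, hT.ap_half hv, hT.ap_half hv, hI, ap_add, ap_smul, hhv,
        ← neg_one_smul F z, ap_smul, neg_one_smul]
    rw [← hgv, hσ, conj_mul, conj_mul, hτR.eq]
  obtain ⟨b, hb⟩ := hT.exists_slice_map hv hv' hgv
  have hfix : ∀ z, ap σ (pt e P v' z) = pt e P v' z := fun z => by
    obtain ⟨z, rfl⟩ : ∃ z', ap b z' = z := ⟨_, ap_ap_inv b z⟩
    rw [← hb, hσ, ap_mul, ap_mul, ap_inv_ap, hτ, ap_kron, ap_one, hhv]
  obtain ⟨c, hc, hcv, hσc⟩ :=
    hT.left_of_fix hv' (hT.mem_of_comm_R hM hv' hσM hσR) (hM.le_isom hσM) hfix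
  obtain ⟨w, w', y₁, y₂, fw⟩ := hT.exists_iso₂
  set X := ap g (pt e P x y₁) with hX
  have hσX : ap σ X = t⁻¹ • X := by
    rw [hX, hσ, ap_mul, ap_mul, ap_inv_ap, hτ, ap_kron, ap_one, hhx, pt_smul_left, ap_smul]
  obtain ⟨z, hz⟩ : ∃ z, hT.cc z X ≠ 0 := by
    by_contra hc
    push Not at hc
    have hX0 : X = 0 := hT.ext_cc fun z => by rw [hc z, map_zero]
    rw [hX] at hX0
    exact pt_ne_zero e P (x := x) (y := y₁) hx0 (fun h0 => fw.y₁₁ (by rw [h0, hT.sym₂.zero_left]))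
      (ap_injective g (by rw [hX0, ap_zero]))
  set x₁ := hT.cc z X
  have hcx : ap c x₁ = t⁻¹ • x₁ := by
    have := congrArg (hT.cc z) hσX
    rwa [map_smul, hσc, hT.cc_kron_one] at this
  have ht1 : t⁻¹ * t⁻¹ ≠ 1 := fun h => ht (by field_simp at h; linear_combination -h)
  refine ⟨x₁, hz, ?_, ?_⟩
  · have h := mem_isom_iff.mp hc x₁ x₁
    rw [hcx, hg₁.smul_left, hg₁.smul_right] at h
    exact (mul_eq_zero.mp (show (t⁻¹ * t⁻¹ - 1) * f₁ x₁ x₁ = 0 by linear_combination h)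
      ).resolve_left (sub_ne_zero.mpr ht1)
  · have h := mem_isom_iff.mp hc x₁ v'
    rw [hcx, hcv, hg₁.smul_left] at h
    exact (mul_eq_zero.mp (show (t⁻¹ - 1) * f₁ x₁ v' = 0 by linear_combination h)
      ).resolve_left (sub_ne_zero.mpr fun h0 => ht1 (by rw [h0, one_mul]))

/-- An element conjugating a half-turn into the stabiliser lies there. -/
theorem mem_of_conj_R {v : Fin 3 → F} (hv : f₁ v v ≠ 0) {g : GL ι F} (hg : g ∈ M)
    (h : g * hT.R v * g⁻¹ ∈ T₀) : g ∈ T₀ := by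
  classical
  have hg₁ := hT.sym₁
  obtain ⟨m, hm, hgm⟩ := hT.exists_eq_R hM hv hg h
  have hgm' : g⁻¹ * hT.R m * g⁻¹⁻¹ = hT.R v := by rw [← hgm, inv_inv]; group
  -- the two values lie in one square class
  obtain ⟨c, hc⟩ : ∃ c : F, f₁ v v = c * c * f₁ m m := by
    by_cases hiso : ∃ x, x ≠ 0 ∧ f₁ x x = 0 ∧ f₁ x v = 0
    · obtain ⟨x, hx0, hxx, hxv⟩ := hiso
      obtain ⟨y, hy0, hyy, hym⟩ := hT.iso_transfer hM hv hm hg hgm hx0 hxx hxv
      exact hT.square_of_iso hv hm hx0 hxx hxv hy0 hyy hym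
    obtain ⟨u, u', d, fu⟩ := hT.exists_iso₁
    have hu0 : u ≠ 0 := fun h0 => one_ne_zero (α := F) (by rw [← fu.uv, h0, hg₁.zero_left])
    have hud : f₁ u d = 0 := by rw [hg₁.symm, fu.du]
    have hns : ∀ {n}, f₁ n n ≠ 0 → (¬∃ x, x ≠ 0 ∧ f₁ x x = 0 ∧ f₁ x n = 0) →
        ¬ IsSquare (f₁ n n / f₁ d d) := by
      rintro n hn hno ⟨r, hr⟩
      obtain ⟨a, ha, had⟩ := hT.exists_scale_move (v := n) (v' := d) hn (c := r)
        (by rw [← hr, div_mul_cancel₀ _ fu.dd])
      have hI := mem_isom_iff.mp (inv_mem ha)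
      refine hno ⟨ap a⁻¹ u, ap_ne_zero _ hu0, by rw [hI, fu.uu], ?_⟩
      have e1 : n = ap a⁻¹ (r • d) := by rw [← had, ap_inv_ap]
      rw [e1, hI, hg₁.smul_right, hud, mul_zero]
    have hnom : ¬∃ x, x ≠ 0 ∧ f₁ x x = 0 ∧ f₁ x m = 0 := by
      rintro ⟨x, hx0, hxx, hxm⟩
      exact hiso (hT.iso_transfer hM hm hv (inv_mem hg) hgm' hx0 hxx hxm)
    obtain ⟨r, hr⟩ := isSquare_mul_of_not' (hns hv hiso) (hns hm hnom)
    refine ⟨r * f₁ d d / f₁ m m, ?_⟩
    have := fu.dd
    field_simp at hr ⊢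
    linear_combination hr
  obtain ⟨a, ha, hav⟩ := hT.exists_scale_move hv hc
  have hc0 : c ≠ 0 := fun h0 => hv (by rw [hc, h0, zero_mul, zero_mul])
  have hconj : a * hT.half v * a⁻¹ = hT.half m := by
    refine gl_ext fun x => ?_
    obtain ⟨x, rfl⟩ : ∃ x', ap a x' = x := ⟨_, ap_ap_inv a x⟩
    rw [ap_mul, ap_mul, ap_inv_ap, hT.ap_half hv, hT.ap_half hm, ap_add, ap_smul, hav,
      ← neg_one_smul F x, ap_smul, neg_one_smul, smul_smul]
    congr 2
    have e1 : f₁ x v = c * f₁ (ap a x) m := by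
      rw [← hg₁.smul_right, ← hav, mem_isom_iff.mp ha]
    rw [e1, hc]
    field_simp
  obtain ⟨k, hkM, hkT, hkR⟩ : ∃ k, k ∈ M ∧ k ∈ T₀ ∧ k * hT.R v * k⁻¹ = hT.R m := by
    rcases hT.good_of_isom ha with h1 | h1
    · refine ⟨_, hM.le ⟨kron_mem e P _ _, h1⟩, kron_mem e P _ _, ?_⟩
      rw [R, R, kron_inv, inv_one, kron_mul, kron_mul, one_mul, one_mul, hconj]
    · refine ⟨_, hM.le ⟨kron_mem e P _ _, h1⟩, kron_mem e P _ _, ?_⟩
      rw [R, R, kron_inv, inv_one, kron_mul, kron_mul, one_mul, one_mul]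
      congr 1
      rw [_root_.mul_inv_rev, inv_eq_of_mul_eq_one_right negOne_mul_self, negOne_comm a,
        negOne_comm a⁻¹ |>.symm, ← hconj]
      simp only [mul_assoc]
      rw [← mul_assoc negOne (hT.half v), negOne_comm, mul_assoc, ← mul_assoc negOne negOne,
        negOne_mul_self, one_mul]
  have hcomm : k⁻¹ * g * hT.R v = hT.R v * (k⁻¹ * g) := by
    have h1 : g * hT.R v = hT.R m * g := mul_inv_eq_iff_eq_mul.mp hgm
    rw [mul_assoc, h1, ← hkR]
    group
  have := mul_mem hkT (hT.mem_of_comm_R hM hv (mul_mem (inv_mem hkM) hg) hcomm)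
  rwa [mul_inv_cancel_left] at this

/-- Without long root elements at isotropic slices the overgroup is the stabiliser. -/
theorem le_of_small : M ≤ T₀ := by
  classical
  intro g hg
  have hg₁ := hT.sym₁
  have h2 := hT.two_ne
  haveI : Fintype F := Fintype.ofFinite F
  obtain ⟨ν, hν⟩ := FiniteField.exists_nonsquare (F := F) (fun hc => h2 (by
    have := ringChar.Nat.cast_ringChar (R := F); rw [hc] at this; exact_mod_cast this))
  have hν0 : ν ≠ 0 := fun h => hν (h ▸ IsSquare.zero)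
  obtain ⟨u, u', d, fu⟩ := hT.exists_iso₁
  have h1' : f₁ u' u = 1 := by rw [hg₁.symm, fu.uv]
  have hQ : ∀ t : F, f₁ (u + t • u') (u + t • u') = 2 * t := fun t => by
    simp only [hg₁.add_left, hg₁.add_right, hg₁.smul_left, hg₁.smul_right, fu.uu, fu.vv, fu.uv,
      h1']
    ring
  set v := u + (1 : F) • u'
  set x₀ := u + ν • u'
  have hv : f₁ v v ≠ 0 := by rw [hQ, mul_one]; exact h2
  have hx₀ : f₁ x₀ x₀ ≠ 0 := by rw [hQ]; exact mul_ne_zero h2 hν0
  let p : M := ⟨hT.R v, hM.le (hT.R_mem hv)⟩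
  let x : M := ⟨hT.R x₀, hM.le (hT.R_mem hx₀)⟩
  have key := conj_mem_of_involutions (H := (T₀).subgroupOf M) (p := p) (x := x)
    (Subgroup.mem_subgroupOf.mpr (Subgroup.mem_inf.mp (hT.R_mem hv)).1)
    (Subgroup.mem_subgroupOf.mpr (Subgroup.mem_inf.mp (hT.R_mem hx₀)).1)
    (Subtype.ext (hT.R_mul_self hv)) (Subtype.ext (hT.R_mul_self hx₀))
    (fun k hk => Subgroup.mem_subgroupOf.mpr
      (hT.mem_of_conj_R hM hv k.2 (Subgroup.mem_subgroupOf.mp hk))) ?_ ?_ ⟨g, hg⟩
  · exact hT.mem_of_conj_R hM hx₀ hg (Subgroup.mem_subgroupOf.mp key)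
  · -- the half-turns are not conjugate in the stabiliser
    intro k hk heq
    obtain ⟨a, ha, b, -, hkab⟩ := hT.factor (Subgroup.mem_subgroupOf.mp hk) (hM.le_isom k.2)
    have heq' : (k : GL ι F) * hT.R v * (k : GL ι F)⁻¹ = hT.R x₀ := congrArg Subtype.val heq
    rw [hkab, R, R, kron_inv, kron_mul, kron_mul, mul_one, mul_inv_cancel] at heq'
    have h1 := congrArg (fun k => ap k (ap a v)) (kron_left_inj heq')
    simp only [ap_mul, ap_inv_ap, hT.ap_half_self hv, hT.ap_half hx₀] at h1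
    set t := f₁ (ap a v) x₀ / f₁ x₀ x₀ with ht
    have hav : ap a v = t • x₀ := by
      apply smul_right_injective (Fin 3 → F) h2
      show (2 : F) • ap a v = (2 : F) • t • x₀
      rw [smul_smul, ht, ← mul_div_assoc]
      linear_combination (norm := module) h1
    have h3 := mem_isom_iff.mp ha v v
    rw [hav, hg₁.smul_left, hg₁.smul_right, hQ, hQ, mul_one] at h3
    have htν : t * t * ν = 1 := mul_left_cancel₀ h2 (by linear_combination h3)
    have ht0 : t ≠ 0 := fun h0 => by simp [h0] at htν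
    exact hν ⟨t⁻¹, by field_simp; linear_combination htν⟩
  · -- centralisers of the central involutions
    intro g' hg' z hz hz1 hz2 k hk
    obtain ⟨a, ha, b, -, hab⟩ := hT.factor
      (hT.mem_of_conj_R hM hx₀ g'.2 (Subgroup.mem_subgroupOf.mp hg')) (hM.le_isom g'.2)
    let φ : GL (Fin 3) F →* GL ι F :=
      MonoidHom.mk' (fun a => kron e P a (1 : GL (Fin 4) F)) fun a a' => by
        rw [kron_mul, one_mul]
    set t := a * hT.half x₀ * a⁻¹ with ht
    have hprod : ((p * (g' * x * g'⁻¹) : M) : GL ι F) = φ (hT.half v * t) := by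
      show hT.R v * ((g' : GL ι F) * hT.R x₀ * (g' : GL ι F)⁻¹) =
        kron e P (hT.half v * t) (1 : GL (Fin 4) F)
      rw [hab, R, R, kron_inv, kron_mul, kron_mul, kron_mul, mul_one, mul_inv_cancel, one_mul]
    obtain ⟨n₀, hn₀, hn₀0⟩ := Submodule.exists_mem_ne_zero_of_ne_bot
      (LinearMap.ker_ne_bot_of_finrank_lt (f := (hg₁.fl v).prod (hg₁.fl (ap a x₀))) (by simp))
    obtain ⟨hn₀v, hn₀w⟩ : f₁ n₀ v = 0 ∧ f₁ n₀ (ap a x₀) = 0 := by simpa using hn₀
    have e0 : f₁ (ap a⁻¹ n₀) x₀ = 0 := by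
      rw [← mem_isom_iff.mp ha, ap_ap_inv, hn₀w]
    have hfix : ap (hT.half v * t) n₀ = n₀ := by
      rw [ht, ap_mul, ap_mul, ap_mul, hT.ap_half_perp hx₀ e0, ← neg_one_smul F (ap a⁻¹ n₀), ap_smul,
        ap_ap_inv, ap_smul, hT.ap_half_perp hv hn₀v, neg_one_smul, neg_neg]
    obtain ⟨i, rfl⟩ := Subgroup.mem_zpowers_iff.mp hz
    set c := (hT.half v * t) ^ i with hc
    have hzc : (((p * (g' * x * g'⁻¹)) ^ i : M) : GL ι F) = φ c := by
      rw [SubgroupClass.coe_zpow, hprod, hc, map_zpow]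
    have hcI : c ∈ isom f₁ := zpow_mem (mul_mem (hT.half_mem v)
      (mul_mem (mul_mem ha (hT.half_mem x₀)) (inv_mem ha))) i
    have hcc : c * c = 1 := kron_left_inj (e := e) (P := P) (by
      show φ (c * c) = φ 1
      rw [map_mul, map_one, ← hzc]
      exact congrArg Subtype.val hz2)
    have hc1 : c ≠ 1 := fun h0 => hz1 (Subtype.ext (by rw [hzc, h0, map_one]; rfl))
    have hcn : ap c n₀ = n₀ := by
      let S : Subgroup (GL (Fin 3) F) :=
        { carrier := {a | ap a n₀ = n₀}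
          mul_mem' := fun {a b} ha hb => by
            simp only [Set.mem_ofPred_eq] at ha hb ⊢
            rw [ap_mul, hb, ha]
          one_mem' := ap_one n₀
          inv_mem' := fun {a} ha => by
            simp only [Set.mem_ofPred_eq] at ha ⊢
            conv_lhs => rw [← ha, ap_inv_ap] }
      exact S.zpow_mem (x := hT.half v * t) hfix i
    have hc2 : c ≠ negOne := fun h0 => by
      rw [h0, ap_negOne] at hcn
      refine hn₀0 ((smul_eq_zero.mp (show (2 : F) • n₀ = 0 by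
        linear_combination (norm := module) -hcn)).resolve_left h2)
    obtain ⟨m, hm, hor⟩ := hT.exists_half hcI hcc hc1 hc2
    refine Subgroup.mem_subgroupOf.mpr (hT.mem_of_comm_R hM hm k.2 ?_)
    have hkz : (k : GL ι F) * φ c = φ c * k := by
      rw [← hzc]
      exact congrArg Subtype.val (mul_inv_eq_iff_eq_mul.mp hk)
    rcases hor with hor | hor
    · rw [hor] at hkz
      exact hkz
    · have e1 : φ c = kron e P negOne (1 : GL (Fin 4) F) * hT.R m := by
        rw [hor, map_mul]; rfl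
      rw [e1, ← mul_assoc, ← hT.comm_negOne, mul_assoc, mul_assoc] at hkz
      exact mul_left_cancel hkz

omit hM in
/-- The stabiliser is maximal. -/
theorem isMaximalIn :
    Cfsg.Geo.IsMaximalIn (Cfsg.Geo.omegaGL (⇑Q)) (T₀ ⊓ Cfsg.Geo.omegaGL (⇑Q)) := by
  refine ⟨hT.lt_omega, fun M hHM hMO => ?_⟩
  have hMI : M ≤ Cfsg.isometryGroup F (⇑Q) := hMO.trans (by
    rw [Orth.omegaGL_eq]; exact Subgroup.commutator_le_self _)
  by_cases hc : ∀ w A, f₂ w w = 0 → w ≠ 0 → hT.Cen M w A → A = 0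
  · exact Or.inl (le_antisymm (le_inf (hT.le_of_small ⟨hMI, hHM, hc⟩) hMO) hHM)
  · push Not at hc
    obtain ⟨w₀, A, hw₀, hw₀0, hA, hA0⟩ := hc
    exact Or.inr (le_antisymm hMO (hT.omega_le_of_roots hMI fun w hw hw0 a b =>
      hT.root_all hMI hHM hw₀ hw₀0 hA hA0 hw hw0 a b))

end Data

end CfsgLib.Geometric.OrthThreeFour
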