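import Cfsg.Agent.Lib.Geometric.OrthThreeFour.Root
import Mathlib.Tactic.NoncommRing

/-!
In an overgroup of the stabiliser without long root elements at isotropic slices the radical of the
stabiliser of an isotropic slice consists of factorwise Siegel elements.
-/

set_option autoImplicit false
set_option linter.unusedSectionVars false

namespace CfsgLib.Geometric.OrthThreeFour

open Matrix QuadraticMap Tensor

variable {ι : Type} [Fintype ι] [DecidableEq ι] {F : Type*} [Field F]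
variable {Q : QuadraticForm F (ι → F)} {e : ι ≃ Fin 3 × Fin 4} {P : GL ι F}
  {f₁ : (Fin 3 → F) → (Fin 3 → F) → F} {f₂ : (Fin 4 → F) → (Fin 4 → F) → F}

namespace Data

/-- A proper overgroup: no root elements at isotropic slices. -/
structure Small (hT : Data Q e P f₁ f₂) (M : Subgroup (GL ι F)) : Prop where
  le_isom : M ≤ Cfsg.isometryGroup F (⇑Q)
  le : Cfsg.Geo.tensorProductSubgroup 3 4 e P ⊓ Cfsg.Geo.omegaGL (⇑Q) ≤ M
  noCen : ∀ w A, f₂ w w = 0 → w ≠ 0 → hT.Cen M w A → A = 0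

/-- An element of `M` fixing the slice of `w` and trivial between it and its orthogonal. -/
def InRad (hT : Data Q e P f₁ f₂) (M : Subgroup (GL ι F)) (w : Fin 4 → F) (m : GL ι F) : Prop :=
  m ∈ M ∧ (∀ u, ap m (pt e P u w) = pt e P u w) ∧
    ∀ X, hT.cc w X = 0 → ap m X - X ∈ slice e P w

variable (e P) in
/-- The moved part on the slice of `w'`. -/
def mov (w' : Fin 4 → F) (m : GL ι F) : (Fin 3 → F) →ₗ[F] (ι → F) :=
  ((apEquiv m).toLinearMap - LinearMap.id).comp (ptl e P w')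

lemma mov_apply (w' : Fin 4 → F) (m : GL ι F) (c : Fin 3 → F) :
    mov e P w' m c = ap m (pt e P c w') - pt e P c w' := rfl

/-- The linear part at `y`. -/
def lin (hT : Data Q e P f₁ f₂) (w' y : Fin 4 → F) (m : GL ι F) :
    (Fin 3 → F) →ₗ[F] (Fin 3 → F) :=
  (hT.cc y).comp (mov e P w' m)

/-- The factorwise Siegel element of the second factor. -/
noncomputable def xs (hT : Data Q e P f₁ f₂) (w y : Fin 4 → F) (hw : f₂ w w = 0)
    (hy : f₂ w y = 0) : GL ι F :=
  kron e P (1 : GL (Fin 3) F) (hT.sym₂.rho w y hw hy)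

variable (hT : Data Q e P f₁ f₂) [Finite F] {M : Subgroup (GL ι F)}
include hT

lemma xs_mem {w y : Fin 4 → F} (hw : f₂ w w = 0) (hy : f₂ w y = 0) :
    hT.xs w y hw hy ∈ Cfsg.Geo.tensorProductSubgroup 3 4 e P ⊓ Cfsg.Geo.omegaGL (⇑Q) :=
  hT.kron_right_mem (hT.sym₂.rho_mem_commutator hw hy)

lemma ap_xs {w y : Fin 4 → F} (hw : f₂ w w = 0) (hy : f₂ w y = 0) (v : ι → F) :
    ap (hT.xs w y hw hy) v = v + pt e P (hT.cc w v) y -
      pt e P (hT.cc y v + ((2 : F)⁻¹ * f₂ y y) • hT.cc w v) w := by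
  have h : (apEquiv (hT.xs w y hw hy)).toLinearMap =
      LinearMap.id + (ptl e P y).comp (hT.cc w) -
        (ptl e P w).comp (hT.cc y + ((2 : F)⁻¹ * f₂ y y) • hT.cc w) :=
    ext_pt e P fun a z => by
      simp [xs, hT.sym₂.ap_rho, pt_add_right, pt_sub_right, pt_smul_right, pt_smul_left,
        pt_add_left, smul_smul, add_smul]
  exact LinearMap.congr_fun h v

/-- Commuting with the sign. -/
lemma comm_negOne (g : GL ι F) :
    kron e P negOne (1 : GL (Fin 4) F) * g = g * kron e P negOne 1 := by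
  have h : ∀ X, ap (kron e P negOne (1 : GL (Fin 4) F)) X = -X := fun X =>
    LinearMap.congr_fun (ext_pt e P (f := (apEquiv (kron e P negOne (1 : GL (Fin 4) F))).toLinearMap)
      (g := -LinearMap.id) fun a z => by
        simp only [LinearEquiv.coe_coe, apEquiv_apply, LinearMap.neg_apply, LinearMap.id_apply,
          ap_kron, ap_negOne, ap_one]
        rw [← neg_one_smul F a, pt_smul_left, neg_one_smul]) X
  refine gl_ext fun X => ?_
  rw [ap_mul, ap_mul, h, h, ← neg_one_smul F X, ap_smul, neg_one_smul]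

variable (hM : hT.Small M)
include hM

/-- `M` is closed under conjugation by factorwise isometries of the first factor. -/
lemma conj_mem {a : GL (Fin 3) F} (ha : a ∈ isom f₁) {g : GL ι F} (hg : g ∈ M) :
    kron e P a (1 : GL (Fin 4) F) * g * (kron e P a 1)⁻¹ ∈ M := by
  rcases hT.good_of_isom ha with h | h
  · have hk := hM.le ⟨kron_mem e P a 1, h⟩
    exact mul_mem (mul_mem hk hg) (inv_mem hk)
  · have hk := hM.le ⟨kron_mem e P (negOne * a) 1, h⟩
    have := mul_mem (mul_mem hk hg) (inv_mem hk)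
    rwa [show kron e P (negOne * a) (1 : GL (Fin 4) F) = kron e P negOne 1 * kron e P a 1 by
      rw [kron_mul, one_mul], _root_.mul_inv_rev,
      show kron e P negOne (1 : GL (Fin 4) F) * kron e P a 1 * g *
        ((kron e P a 1)⁻¹ * (kron e P negOne (1 : GL (Fin 4) F))⁻¹) =
        kron e P negOne 1 * (kron e P a 1 * g * (kron e P a 1)⁻¹) *
          (kron e P negOne (1 : GL (Fin 4) F))⁻¹ by simp only [mul_assoc],
      hT.comm_negOne, mul_inv_cancel_right] at this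

variable {w w' y₁ y₂ : Fin 4 → F} (fw : WFrame f₂ w w' y₁ y₂)
include fw

omit hM in
lemma w_ne : w ≠ 0 := fun h => one_ne_zero (α := F) (by rw [← fw.wv, h, hT.sym₂.zero_left])

omit hM in
/-- A vector killed by the contractions of the orthogonal of `w` lies in the slice. -/
lemma mem_slice_of_cc {X : ι → F} (h : hT.cc w X = 0) (h₁ : hT.cc y₁ X = 0)
    (h₂ : hT.cc y₂ X = 0) : X ∈ slice e P w := by
  rw [hT.expand fw X, h, h₁, h₂]
  simp [pt_zero_left, pt_mem_slice]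

omit hM in
lemma cc_slice {y : Fin 4 → F} (hy : f₂ y w = 0) {X : ι → F} (hX : X ∈ slice e P w) :
    hT.cc y X = 0 := by
  obtain ⟨u, rfl⟩ := hX
  rw [ptl_apply, cc_pt, hT.sym₂.symm, hy, zero_smul]

/-- A radical element keeps the contraction at `w`. -/
lemma cc_rad {m : GL ι F} (hm : hT.InRad M w m) (X : ι → F) :
    hT.cc w (ap m X) = hT.cc w X :=
  hT.sym₁.eq_of_forall fun a => hT.cc_ap (hM.le_isom hm.1) (hm.2.1 a) X

lemma cc_mov {m : GL ι F} (hm : hT.InRad M w m) (c : Fin 3 → F) :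
    hT.cc w (mov e P w' m c) = 0 := by
  rw [mov_apply, map_sub, hT.cc_rad hM fw hm, sub_self]

lemma rad_mul {m m' : GL ι F} (hm : hT.InRad M w m) (hm' : hT.InRad M w m') :
    hT.InRad M w (m * m') := by
  refine ⟨mul_mem hm.1 hm'.1, fun u => by rw [ap_mul, hm'.2.1, hm.2.1], fun X hX => ?_⟩
  obtain ⟨u, hu⟩ := hm'.2.2 X hX
  rw [ptl_apply] at hu
  have e1 : ap m' X = X + pt e P u w := by rw [hu]; abel
  rw [ap_mul, e1, ap_add, hm.2.1, show ap m X + pt e P u w - X = (ap m X - X) + pt e P u w by abel]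
  exact Submodule.add_mem _ (hm.2.2 X hX) (pt_mem_slice e P u w)

lemma rad_inv {m : GL ι F} (hm : hT.InRad M w m) : hT.InRad M w m⁻¹ := by
  have hfix : ∀ u, ap m⁻¹ (pt e P u w) = pt e P u w := fun u => ap_injective m (by
    rw [ap_ap_inv, hm.2.1])
  refine ⟨inv_mem hm.1, hfix, fun X hX => ?_⟩
  obtain ⟨u, hu⟩ := hm.2.2 X hX
  rw [ptl_apply] at hu
  have e1 : ap m⁻¹ X = X - pt e P u w := by
    apply ap_injective m
    rw [ap_ap_inv, ap_sub, hm.2.1, hu]
    abel
  rw [e1, sub_sub_cancel_left, ← neg_one_smul F (pt e P u w), ← pt_smul_left]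
  exact pt_mem_slice e P _ _

lemma lin_mul {m m' : GL ι F} (hm : hT.InRad M w m) (hm' : hT.InRad M w m') {y : Fin 4 → F}
    (hy : f₂ y w = 0) : hT.lin w' y (m * m') = hT.lin w' y m + hT.lin w' y m' := by
  refine LinearMap.ext fun c => ?_
  simp only [lin, LinearMap.comp_apply, LinearMap.add_apply, mov_apply, ap_mul]
  set Z := ap m' (pt e P c w') - pt e P c w' with hZ
  have hZw : hT.cc w Z = 0 := hT.cc_mov hM fw hm' c
  have e1 : ap m' (pt e P c w') = pt e P c w' + Z := by rw [hZ]; abel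
  have e2 : hT.cc y (ap m Z) = hT.cc y Z :=
    sub_eq_zero.mp (by rw [← map_sub]; exact hT.cc_slice fw hy (hm.2.2 Z hZw))
  rw [e1, ap_add, add_sub_right_comm, map_add, e2]

omit hM fw in
lemma lin_one (y : Fin 4 → F) : hT.lin w' y 1 = 0 := by
  refine LinearMap.ext fun c => ?_
  simp [lin, mov_apply]

lemma lin_inv {m : GL ι F} (hm : hT.InRad M w m) {y : Fin 4 → F} (hy : f₂ y w = 0) :
    hT.lin w' y m⁻¹ = -hT.lin w' y m :=
  eq_neg_of_add_eq_zero_right (by
    rw [← hT.lin_mul hM fw hm (hT.rad_inv hM fw hm) hy, mul_inv_cancel, hT.lin_one])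

/-- On the orthogonal of the slice the moved part is adjoint to the linear part. -/
lemma rad_perp {m : GL ι F} (hm : hT.InRad M w m) {Z : ι → F} (hZ : hT.cc w Z = 0)
    (c : Fin 3 → F) :
    polar Q (ap m Z - Z) (pt e P c w') = -polar Q Z (mov e P w' m c) := by
  obtain ⟨u, hu⟩ := hm.2.2 Z hZ
  rw [ptl_apply] at hu
  have h := Orth.polar_ap (hM.le_isom hm.1) Z (pt e P c w')
  have e1 : ap m Z = Z + (ap m Z - Z) := by abel
  have e2 : ap m (pt e P c w') = pt e P c w' + mov e P w' m c := by rw [mov_apply]; abel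
  rw [e1, e2, polar_add_left, polar_add_right, polar_add_right] at h
  have e3 : polar Q (ap m Z - Z) (mov e P w' m c) = 0 := by
    rw [← hu, hT.polar_left, hT.cc_mov hM fw hm, hT.sym₁.zero_right]
  rw [e3] at h
  linear_combination h

/-- The linear parts of two radical elements pair symmetrically. -/
lemma rad_pair {m m' : GL ι F} (hm : hT.InRad M w m) (hm' : hT.InRad M w m') (c c' : Fin 3 → F) :
    polar Q (mov e P w' m c) (mov e P w' m' c') = polar Q (mov e P w' m' c) (mov e P w' m c') := by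
  let δ : (ι → F) →ₗ[F] (ι → F) := (apEquiv (m * m')).toLinearMap - (apEquiv (m' * m)).toLinearMap
  have hδ : ∀ X, δ X = ap (m * m') X - ap (m' * m) X := fun X => rfl
  have hperp : ∀ Z, hT.cc w Z = 0 → δ Z = 0 := by
    intro Z hZ
    obtain ⟨u, hu⟩ := hm.2.2 Z hZ
    obtain ⟨u', hu'⟩ := hm'.2.2 Z hZ
    rw [ptl_apply] at hu hu'
    have e1 : ap m Z = Z + pt e P u w := by rw [hu]; abel
    have e2 : ap m' Z = Z + pt e P u' w := by rw [hu']; abel
    rw [hδ, ap_mul, ap_mul, e2, e1, ap_add, ap_add, hm.2.1, hm'.2.1, e1, e2]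
    abel
  set A := (hT.cc w').comp (δ.comp (ptl e P w')) with hA
  have hδc : ∀ c, δ (pt e P c w') = (ap m (mov e P w' m' c) - mov e P w' m' c) -
      (ap m' (mov e P w' m c) - mov e P w' m c) := fun c => by
    simp only [hδ, mov_apply, ap_mul, ap_sub]
    abel
  have hAc : ∀ c, δ (pt e P c w') = pt e P (A c) w := by
    intro c
    obtain ⟨u, hu⟩ : δ (pt e P c w') ∈ slice e P w := by
      rw [hδc]
      exact Submodule.sub_mem _ (hm.2.2 _ (hT.cc_mov hM fw hm' c))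
        (hm'.2.2 _ (hT.cc_mov hM fw hm c))
    rw [ptl_apply] at hu
    show _ = pt e P (hT.cc w' (δ (pt e P c w'))) w
    rw [← hu, cc_pt, fw.wv, one_smul]
  have hA0 : A = 0 := hM.noCen w A fw.ww (hT.w_ne fw) ⟨(m * m') * (m' * m)⁻¹,
    mul_mem (mul_mem hm.1 hm'.1) (inv_mem (mul_mem hm'.1 hm.1)), fun X => by
      obtain ⟨Y, rfl⟩ : ∃ Y, ap (m' * m) Y = X := ⟨_, ap_ap_inv (m' * m) X⟩
      rw [hT.cc_rad hM fw (hT.rad_mul hM fw hm' hm), ← hAc, ap_mul (g := m * m'), ap_inv_ap]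
      have h1 : δ (Y - pt e P (hT.cc w Y) w') = 0 := hperp _ (by
        rw [map_sub, cc_pt, hT.sym₂.symm w' w, fw.wv, one_smul, sub_self])
      rw [map_sub, sub_eq_zero] at h1
      rw [← h1, hδ]
      abel⟩
  have h : polar Q (δ (pt e P c w')) (pt e P c' w') = 0 := by
    rw [hAc, hA0, LinearMap.zero_apply, pt_zero_left, polar_zero_left]
  rw [hδc, polar_sub_left, hT.rad_perp hM fw hm (hT.cc_mov hM fw hm' c),
    hT.rad_perp hM fw hm' (hT.cc_mov hM fw hm c)] at h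
  linear_combination h

omit hM in
/-- Pairing of linear parts through a frame. -/
lemma polar_perp {X Y : ι → F} (hX : hT.cc w X = 0) (hY : hT.cc w Y = 0) :
    polar Q X Y = (f₂ y₁ y₁)⁻¹ * f₁ (hT.cc y₁ X) (hT.cc y₁ Y) +
      (f₂ y₂ y₂)⁻¹ * f₁ (hT.cc y₂ X) (hT.cc y₂ Y) := by
  have hg := hT.sym₂
  conv_lhs => rw [hT.expand fw X, hT.expand fw Y, hX, hY]
  have := fw.y₁₁
  have := fw.y₂₂
  simp only [pt_zero_left, add_zero, polar_add_left, polar_add_right, hT.polar_pt, fw.ww, fw.y₁w,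
    fw.y₂w, fw.y₁₂, hg.symm w y₁, hg.symm w y₂, hg.symm y₁ y₂, hT.sym₁.smul_left,
    hT.sym₁.smul_right, mul_zero, zero_add]
  field_simp

omit hM in
lemma cc_xs_mov {y z : Fin 4 → F} (hy : f₂ w y = 0) (hz : f₂ z w = 0) (hyv : f₂ y w' = 0) :
    hT.lin w' z (hT.xs w y fw.ww hy) = f₂ y z • LinearMap.id := by
  refine LinearMap.ext fun c => ?_
  simp only [lin, LinearMap.comp_apply, mov_apply, hT.ap_xs, LinearMap.smul_apply,
    LinearMap.id_apply, cc_pt, hT.sym₂.symm w' w, fw.wv, hT.sym₂.symm w' y, hyv, one_smul,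
    zero_smul, zero_add, map_sub, map_add, map_smul, hT.sym₂.symm w z, hz]
  simp

lemma xs_rad {y : Fin 4 → F} (hy : f₂ w y = 0) : hT.InRad M w (hT.xs w y fw.ww hy) := by
  refine ⟨hM.le (hT.xs_mem fw.ww hy), fun u => ?_, fun X hX => ?_⟩
  · rw [hT.ap_xs, cc_pt, cc_pt, fw.ww, hy]
    simp [pt_zero_left]
  · rw [hT.ap_xs, hX, pt_zero_left, smul_zero, add_zero, add_zero, sub_sub_cancel_left,
      ← neg_one_smul F (pt e P _ w), ← pt_smul_left]
    exact pt_mem_slice e P _ _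

/-- The linear parts are self-adjoint. -/
lemma lin_selfadjoint {m : GL ι F} (hm : hT.InRad M w m) {y : Fin 4 → F} (hyw : f₂ y w = 0)
    (hyv : f₂ y w' = 0) (c c' : Fin 3 → F) :
    f₁ (hT.lin w' y m c) c' = f₁ c (hT.lin w' y m c') := by
  have hy : f₂ w y = 0 := hT.sym₂.eq_zero_comm.mp hyw
  have h := hT.rad_pair hM fw hm (hT.xs_rad hM fw hy) c c'
  have e1 : ∀ c, mov e P w' (hT.xs w y fw.ww hy) c =
      pt e P c y - pt e P (((2 : F)⁻¹ * f₂ y y) • c) w := fun c => by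
    rw [mov_apply, hT.ap_xs, cc_pt, cc_pt, hT.sym₂.symm w' w, fw.wv, hT.sym₂.symm w' y, hyv]
    simp
    abel
  have e2 : ∀ (a : Fin 3 → F) c, polar Q (mov e P w' m c) (pt e P a w) = 0 := fun a c => by
    rw [hT.polar_right, hT.cc_mov hM fw hm, hT.sym₁.zero_left]
  rw [e1, e1, polar_sub_right, polar_sub_left, e2, polar_comm Q (pt e P _ w), e2, sub_zero,
    sub_zero, hT.polar_right, hT.polar_left] at h
  exact h

/-- A radical element with no linear part is trivial. -/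
lemma rad_eq_one {m : GL ι F} (hm : hT.InRad M w m) (h₁ : hT.lin w' y₁ m = 0)
    (h₂ : hT.lin w' y₂ m = 0) : m = 1 := by
  have hmov : ∀ c, mov e P w' m c ∈ slice e P w := fun c =>
    hT.mem_slice_of_cc fw (hT.cc_mov hM fw hm c) (LinearMap.congr_fun h₁ c)
      (LinearMap.congr_fun h₂ c)
  have hfix : ∀ Z, hT.cc w Z = 0 → ap m Z = Z := by
    intro Z hZ
    obtain ⟨u, hu⟩ := hm.2.2 Z hZ
    rw [ptl_apply] at hu
    have hu0 : u = 0 := hT.sym₁.eq_of_forall fun c => by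
      have h := hT.rad_perp hM fw hm hZ c
      obtain ⟨v, hv⟩ := hmov c
      rw [ptl_apply] at hv
      rw [← hu, ← hv, hT.polar_pt, fw.wv, mul_one, hT.polar_right, hZ, hT.sym₁.zero_left,
        neg_zero] at h
      rw [h, hT.sym₁.zero_left]
    rw [hu0, pt_zero_left] at hu
    exact sub_eq_zero.mp hu.symm
  set A := (hT.cc w').comp (mov e P w' m) with hA
  have hX : ∀ X, ap m X = X + pt e P (A (hT.cc w X)) w := by
    intro X
    have h1 := hfix (X - pt e P (hT.cc w X) w') (by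
      rw [map_sub, cc_pt, hT.sym₂.symm w' w, fw.wv, one_smul, sub_self])
    obtain ⟨v, hv⟩ := hmov (hT.cc w X)
    rw [ptl_apply] at hv
    have h2 : A (hT.cc w X) = v := by
      show hT.cc w' (mov e P w' m (hT.cc w X)) = v
      rw [← hv, cc_pt, fw.wv, one_smul]
    rw [h2, hv, mov_apply]
    rw [ap_sub] at h1
    linear_combination (norm := abel) h1
  have hA0 := hM.noCen w A fw.ww (hT.w_ne fw) ⟨m, hm.1, hX⟩
  exact gl_ext fun X => by rw [hX, hA0, LinearMap.zero_apply, pt_zero_left, add_zero, ap_one]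

omit hM fw in
lemma cc_kron_one {a : GL (Fin 3) F} (z : Fin 4 → F) (X : ι → F) :
    hT.cc z (ap (kron e P a (1 : GL (Fin 4) F)) X) = ap a (hT.cc z X) := by
  rw [hT.cc_kron (one_mem _), inv_one, ap_one]

/-- Conjugation by an isometry of the first factor. -/
lemma rad_conj {m : GL ι F} (hm : hT.InRad M w m) {a : GL (Fin 3) F} (ha : a ∈ isom f₁) :
    hT.InRad M w (kron e P a (1 : GL (Fin 4) F) * m * (kron e P a 1)⁻¹) ∧
    ∀ y, hT.lin w' y (kron e P a (1 : GL (Fin 4) F) * m * (kron e P a 1)⁻¹) =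
      (apEquiv a).toLinearMap ∘ₗ hT.lin w' y m ∘ₗ (apEquiv a⁻¹).toLinearMap := by
  set K := kron e P a (1 : GL (Fin 4) F) with hK
  refine ⟨⟨hT.conj_mem hM ha hm.1, fun u => ?_, fun X hX => ?_⟩, fun y => ?_⟩
  · rw [ap_mul, ap_mul, hK, kron_inv, inv_one, ap_kron, ap_one, hm.2.1, ap_kron, ap_one, ap_ap_inv]
  · obtain ⟨u, hu⟩ := hm.2.2 (ap K⁻¹ X) (by
      rw [hK, kron_inv, inv_one, hT.cc_kron_one, hX, ap_zero])
    rw [ptl_apply] at hu
    refine ⟨ap a u, ?_⟩
    have h1 := congrArg (ap K) hu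
    rw [hK, ap_kron, ap_one, ap_sub, ap_ap_inv] at h1
    rw [ptl_apply, ap_mul, ap_mul, hK]
    exact h1
  · refine LinearMap.ext fun c => ?_
    simp only [lin, LinearMap.comp_apply, LinearEquiv.coe_coe, apEquiv_apply, mov_apply]
    rw [map_sub, map_sub, ap_mul, ap_mul, hK, kron_inv, inv_one, ap_kron, ap_one, hT.cc_kron_one,
      cc_pt, cc_pt, ap_sub, ap_smul, ap_ap_inv]

/-- The differences with conjugates. -/
lemma rad_comm {m : GL ι F} (hm : hT.InRad M w m) {a : GL (Fin 3) F} (ha : a ∈ isom f₁) :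
    ∃ m', hT.InRad M w m' ∧ ∀ y, f₂ y w = 0 → hT.lin w' y m' =
      (apEquiv a).toLinearMap ∘ₗ hT.lin w' y m ∘ₗ (apEquiv a⁻¹).toLinearMap - hT.lin w' y m := by
  obtain ⟨h1, h2⟩ := hT.rad_conj hM fw hm ha
  refine ⟨_, hT.rad_mul hM fw h1 (hT.rad_inv hM fw hm), fun y hy => ?_⟩
  rw [hT.lin_mul hM fw h1 (hT.rad_inv hM fw hm) hy, h2, hT.lin_inv hM fw hm hy, sub_eq_add_neg]

omit hM fw in
/-- Differences with the conjugates by a unipotent of index three vanish at the fifth step. -/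
lemma iterate_zero (r ri : Module.End F (Fin 3 → F)) (h1 : r * ri = 1) (h2 : ri * r = 1)
    (h3 : (r - 1) * (r - 1) * (r - 1) = 0) (L : Module.End F (Fin 3 → F)) :
    (fun A => r * A * ri - A)^[5] L = 0 := by
  set N := r - 1 with hN
  have hc : N * ri = ri * N := by rw [hN, sub_mul, mul_sub, h1, h2, one_mul, mul_one]
  have hT1 : ∀ A, r * A * ri - A = (N * A - A * N) * ri := fun A => by
    have : A = A * (r * ri) := by rw [h1, mul_one]
    conv_lhs => arg 2; rw [this]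
    rw [← mul_assoc, ← sub_mul]
    congr 1
    rw [hN, sub_mul, mul_sub, one_mul, mul_one]
    abel
  clear_value N
  have hk : ∀ k : ℕ, (fun A => r * A * ri - A)^[k] L =
      (fun A => N * A - A * N)^[k] L * ri ^ k := by
    intro k
    induction k with
    | zero => simp
    | succ k ih =>
      rw [Function.iterate_succ_apply', Function.iterate_succ_apply', ih, hT1, pow_succ]
      set B := (fun A => N * A - A * N)^[k] L
      have hck : ri ^ k * N = N * ri ^ k := ((show Commute N ri from hc).pow_right k).eq.symm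
      rw [sub_mul, sub_mul, mul_assoc B (ri ^ k) N, hck]
      simp only [sub_mul, mul_assoc]
  rw [hk]
  have hz : (fun A => N * A - A * N)^[5] L = 0 := by
    simp only [Function.iterate_succ_apply', Function.iterate_zero_apply]
    have e1 : ∀ X, N * (N * (N * X)) = 0 := fun X => by
      rw [← mul_assoc, ← mul_assoc, h3, zero_mul]
    have e2 : ∀ X, X * N * N * N = 0 := fun X => by
      rw [mul_assoc, mul_assoc, ← mul_assoc N, h3, mul_zero]
    simp only [mul_sub, sub_mul, mul_assoc]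
    simp only [← mul_assoc N N N, h3, mul_zero, zero_mul, sub_zero, zero_sub, sub_self, e1,
      neg_zero]
  rw [hz, zero_mul]

omit hM fw in
/-- A self-adjoint map with scalar differences at two Siegel elements is scalar plus a rank one
map. -/
lemma key_form {u u' d : Fin 3 → F} (fu : IsoFrame f₁ u u' d)
    {L : (Fin 3 → F) →ₗ[F] (Fin 3 → F)} (hL : ∀ x y, f₁ (L x) y = f₁ x (L y)) {t : F}
    (ht0 : t ≠ 0) (ht : t * t ≠ 1) {γ₁ γ₂ : F}
    (h1 : ∀ x, L x + f₁ (L x) u • d - (f₁ (L x) d + (2 : F)⁻¹ * f₁ d d * f₁ (L x) u) • u =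
      L (x + f₁ x u • d - (f₁ x d + (2 : F)⁻¹ * f₁ d d * f₁ x u) • u) +
        γ₁ • (x + f₁ x u • d - (f₁ x d + (2 : F)⁻¹ * f₁ d d * f₁ x u) • u))
    (h2 : ∀ x, L x + f₁ (L x) u • (t • d) -
        (f₁ (L x) (t • d) + (2 : F)⁻¹ * f₁ (t • d) (t • d) * f₁ (L x) u) • u =
      L (x + f₁ x u • (t • d) - (f₁ x (t • d) + (2 : F)⁻¹ * f₁ (t • d) (t • d) * f₁ x u) • u) +
        γ₂ • (x + f₁ x u • (t • d) -
          (f₁ x (t • d) + (2 : F)⁻¹ * f₁ (t • d) (t • d) * f₁ x u) • u)) :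
    ∃ a h : F, ∀ x, L x = a • x + (h * f₁ x u) • u := by
  have hg := hT.sym₁
  have h2' := hT.two_ne
  have h1' : f₁ u' u = 1 := by rw [hg.symm, fu.uv]
  have hud : f₁ u d = 0 := by rw [hg.symm, fu.du]
  have hu'd : f₁ u' d = 0 := by rw [hg.symm, fu.dv]
  set δ := f₁ d d with hδ
  have hδ0 : δ ≠ 0 := fu.dd
  set a := f₁ (L u) u' with ha
  set b := f₁ (L u) d with hb
  set p := f₁ (L d) d with hp
  set g := f₁ (L d) u' with hg'
  set h := f₁ (L u') u' with hh
  have A1 := congrArg (fun z => f₁ z d) (h1 u)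
  have A2 := congrArg (fun z => f₁ z u') (h1 u)
  have C2 := congrArg (fun z => f₁ z u') (h2 u)
  have B1 := congrArg (fun z => f₁ z d) (h1 d)
  have B2 := congrArg (fun z => f₁ z u') (h1 d)
  have D1 := congrArg (fun z => f₁ z u') (h1 u')
  have D2 := congrArg (fun z => f₁ z u') (h2 u')
  have sdu : f₁ (L d) u = b := by rw [hb, hL d u, hg.symm d]
  have su'u : f₁ (L u') u = a := by rw [ha, hL u' u, hg.symm u']
  have su'd : f₁ (L u') d = g := by rw [hg', hL u' d, hg.symm u']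
  simp only [hg.add_left, hg.sub_left, hg.smul_left, hg.smul_right, map_add, map_sub, map_smul,
    fu.uu, fu.vv, fu.uv, fu.du, fu.dv, h1', hud, hu'd, sdu, su'u, su'd, ← hδ, ← ha, ← hb, ← hp,
    ← hg', ← hh] at A1 A2 B1 B2 C2 D1 D2
  have huu : f₁ (L u) u = 0 := (mul_eq_zero.mp (show f₁ (L u) u * δ = 0 by
    linear_combination A1)).resolve_right hδ0
  simp only [huu, mul_zero, zero_mul, add_zero, sub_zero] at A2 C2
  have eγ₁ : γ₁ = -b := by linear_combination -A2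
  have eγ₂ : γ₂ = -(t * b) := by linear_combination -C2
  subst eγ₁ eγ₂
  have e3 : 3 * b = 0 := (mul_eq_zero.mp (show 3 * b * δ = 0 by linear_combination B1)).resolve_right hδ0
  field_simp at B2 D1 D2
  have hb0 : b = 0 := by
    have : δ * b * (t * t - 1) * t = 0 := by linear_combination t * D1 - D2
    simpa [hδ0, ht0, sub_ne_zero.mpr ht] using this
  have hg0 : g = 0 := by
    rw [hb0] at D1
    have : (4 : F) * g = 0 := by linear_combination -D1
    have h4 : (4 : F) ≠ 0 := by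
      rw [show (4 : F) = 2 * 2 by norm_num]; exact mul_ne_zero h2' h2'
    exact (mul_eq_zero.mp this).resolve_left h4
  have hp0 : p = δ * a := by
    rw [hb0] at B2
    have : 2 * (p - δ * a) = 0 := by linear_combination -B2
    exact sub_eq_zero.mp ((mul_eq_zero.mp this).resolve_left h2')
  refine ⟨a, h, fun x => ?_⟩
  have eu : L u = a • u := by
    rw [fu.dec (L u), huu, ← ha, ← hb, hb0]; simp
  have ed : L d = a • d := by
    rw [fu.dec (L d), sdu, ← hg', ← hp, hb0, hg0, hp0, ← hδ, mul_div_cancel_left₀ _ hδ0]; simp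
  have eu' : L u' = h • u + a • u' := by
    rw [fu.dec (L u'), su'u, su'd, ← hh, hg0]; simp
  conv_lhs => rw [fu.dec x, map_add, map_add, map_smul, map_smul, map_smul, eu, ed, eu']
  conv_rhs => arg 1; rw [fu.dec x]
  module

/-- The radical consists of the factorwise Siegel elements. -/
theorem rad_eq {m : GL ι F} (hm : hT.InRad M w m) :
    ∃ y, ∃ hy : f₂ w y = 0, f₂ y w' = 0 ∧ m = hT.xs w y fw.ww hy := by
  classical
  have hg := hT.sym₁
  have hg₂ := hT.sym₂
  have h2 := hT.two_ne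
  obtain ⟨t, ht0, ht⟩ := hT.many
  obtain ⟨u, u', d, fu⟩ := hT.exists_iso₁
  have hud : f₁ u d = 0 := by rw [hg.symm, fu.du]
  have hudt : ∀ r : F, f₁ u (r • d) = 0 := fun r => by rw [hg.smul_right, hud, mul_zero]
  let ρ : F → GL (Fin 3) F := fun r => hg.rho u (r • d) fu.uu (hudt r)
  have hρI : ∀ r, ρ r ∈ isom f₁ := fun r => hg.rho_mem_isom _ _
  let Δ : F → Module.End F (Fin 3 → F) → Module.End F (Fin 3 → F) := fun r A =>
    (apEquiv (ρ r)).toLinearMap * A * (apEquiv (ρ r)⁻¹).toLinearMap - A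
  let Scal : GL ι F → Prop := fun m => ∀ y, f₂ y w = 0 → f₂ y w' = 0 →
    ∃ γ : F, ∀ x, hT.lin w' y m x = γ • x
  have hΔscal : ∀ r A, (∃ γ : F, ∀ x, A x = γ • x) → ∀ x, Δ r A x = 0 := by
    rintro r A ⟨γ, hγ⟩ x
    simp [Δ, hγ, ap_smul, ap_ap_inv]
  have hcomm : ∀ r A, Δ r (Δ 1 A) = Δ 1 (Δ r A) := by
    intro r A
    have hρ : ρ r * ρ 1 = ρ 1 * ρ r := by
      simp only [ρ, OrthTensor.SymForm.rho, Orth.sg_mul']
      exact Orth.sg_congr rfl (add_comm _ _) _ _
    have e1 : ∀ x, ap (ρ r) (ap (ρ 1) x) = ap (ρ 1) (ap (ρ r) x) := fun x => by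
      rw [← ap_mul, hρ, ap_mul]
    have e2 : ∀ x, ap (ρ r)⁻¹ (ap (ρ 1)⁻¹ x) = ap (ρ 1)⁻¹ (ap (ρ r)⁻¹ x) := fun x => by
      rw [← ap_mul, ← _root_.mul_inv_rev, ← hρ, _root_.mul_inv_rev, ap_mul]
    refine LinearMap.ext fun x => ?_
    simp only [Δ, LinearMap.sub_apply, Module.End.mul_apply, LinearEquiv.coe_coe, apEquiv_apply,
      map_sub, ap_sub, e1, e2]
    abel
  have hstep : ∀ {m}, hT.InRad M w m → ∀ r, ∃ m', hT.InRad M w m' ∧
      ∀ y, f₂ y w = 0 → hT.lin w' y m' = Δ r (hT.lin w' y m) := fun hm r => by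
    obtain ⟨m', h1, h2⟩ := hT.rad_comm hM fw hm (hρI r)
    exact ⟨m', h1, fun y hy => h2 y hy⟩
  have key : ∀ {m}, hT.InRad M w m →
      (∀ y, f₂ y w = 0 → f₂ y w' = 0 → ∃ γ : F, ∀ x, Δ 1 (hT.lin w' y m) x = γ • x) →
      (∀ y, f₂ y w = 0 → f₂ y w' = 0 → ∃ γ : F, ∀ x, Δ t (hT.lin w' y m) x = γ • x) →
      Scal m := by
    intro m hm h1 h2'
    have hrel : ∀ (r : F) (y : Fin 4 → F) (γ : F), (∀ x, Δ r (hT.lin w' y m) x = γ • x) → ∀ x,
        ap (ρ r) (hT.lin w' y m x) = hT.lin w' y m (ap (ρ r) x) + γ • ap (ρ r) x := by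
      intro r y γ h x
      have := h (ap (ρ r) x)
      simp only [Δ, LinearMap.sub_apply, Module.End.mul_apply, LinearEquiv.coe_coe, apEquiv_apply,
        ap_inv_ap] at this
      rw [← this, add_sub_cancel]
    have hform : ∀ y, f₂ y w = 0 → f₂ y w' = 0 →
        ∃ a h : F, ∀ x, hT.lin w' y m x = a • x + (h * f₁ x u) • u := by
      intro y hyw hyv
      obtain ⟨γ₁, g₁⟩ := h1 y hyw hyv
      obtain ⟨γ₂, g₂⟩ := h2' y hyw hyv
      refine hT.key_form fu (hT.lin_selfadjoint hM fw hm hyw hyv) ht0 ht (γ₁ := γ₁) (γ₂ := γ₂)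
        (fun x => ?_) (fun x => ?_)
      · have := hrel 1 y γ₁ g₁ x
        simpa only [ρ, one_smul, hg.ap_rho] using this
      · have := hrel t y γ₂ g₂ x
        simpa only [ρ, hg.ap_rho] using this
    obtain ⟨a₁, h₁, e₁⟩ := hform y₁ fw.y₁w fw.y₁v
    obtain ⟨a₂, h₂, e₂⟩ := hform y₂ fw.y₂w fw.y₂v
    have h1' : f₁ u' u = 1 := by rw [hg.symm, fu.uv]
    have hone : f₁ (u + u') (u + u') = 2 := by
      simp only [hg.add_left, hg.add_right, fu.uu, fu.vv, fu.uv, h1']; ring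
    set σ := hT.half (u + u') with hσ
    have hσ0 : f₁ (u + u') (u + u') ≠ 0 := by rw [hone]; exact h2
    have hσu : ap σ u = u' := by
      rw [hσ, hT.ap_half hσ0, hone, hg.add_right, fu.uu, fu.uv, zero_add, mul_one, div_self h2,
        one_smul, neg_add_cancel_left]
    have hσu' : ap σ u' = u := by
      rw [← hσu, ← ap_mul, hσ, hT.half_mul_self hσ0, ap_one]
    obtain ⟨hm', hlin⟩ := hT.rad_conj hM fw hm (hT.half_mem (u + u') : σ ∈ isom f₁)
    have hσi : σ⁻¹ = σ := hT.half_inv hσ0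
    have hpair := hT.rad_pair hM fw hm hm' u' u
    rw [hT.polar_perp fw (hT.cc_mov hM fw hm _) (hT.cc_mov hM fw hm' _),
      hT.polar_perp fw (hT.cc_mov hM fw hm' _) (hT.cc_mov hM fw hm _)] at hpair
    have hd : ∀ y c (n : GL ι F), hT.cc y (mov e P w' n c) = hT.lin w' y n c := fun _ _ _ => rfl
    simp only [← hσ] at hlin hpair
    simp only [hd, hlin, LinearMap.comp_apply, LinearEquiv.coe_coe, apEquiv_apply, hσi, hσu, hσu',
      e₁, e₂, ap_add, ap_smul, fu.uu, fu.vv, fu.uv, h1', hg.add_left, hg.add_right, hg.smul_left,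
      hg.smul_right] at hpair
    set y₀ := (h₁ / f₂ y₁ y₁) • y₁ + (h₂ / f₂ y₂ y₂) • y₂ with hy₀
    have k1 := fw.y₁₁
    have k2 := fw.y₂₂
    have hy₀0 : y₀ = 0 := hT.eq_zero_of_aniso fw.ww fw.wv
      (by simp [hy₀, hg₂.add_left, hg₂.smul_left, fw.y₁w, fw.y₂w])
      (by simp [hy₀, hg₂.add_left, hg₂.smul_left, fw.y₁v, fw.y₂v])
      (by
        simp only [hy₀, hg₂.add_left, hg₂.add_right, hg₂.smul_left, hg₂.smul_right, fw.y₁₂,
          hg₂.symm y₁ y₂]
        field_simp at hpair ⊢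
        linear_combination hpair)
    have e3 : h₁ = 0 := by
      have := congrArg (fun z => f₂ z y₁) hy₀0
      simpa [hy₀, hg₂.add_left, hg₂.smul_left, fw.y₁₂, k1, hg₂.zero_left] using this
    have e4 : h₂ = 0 := by
      have := congrArg (fun z => f₂ z y₂) hy₀0
      simpa [hy₀, hg₂.add_left, hg₂.smul_left, hg₂.symm y₁ y₂, fw.y₁₂, k2, hg₂.zero_left] using this
    intro y hyw hyv
    have hy : y = (f₂ y y₁ / f₂ y₁ y₁) • y₁ + (f₂ y y₂ / f₂ y₂ y₂) • y₂ := by
      conv_lhs => rw [fw.dec y, hyw, hyv]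
      simp
    refine ⟨f₂ y y₁ / f₂ y₁ y₁ * a₁ + f₂ y y₂ / f₂ y₂ y₂ * a₂, fun x => ?_⟩
    have : hT.lin w' y m x = (f₂ y y₁ / f₂ y₁ y₁) • hT.lin w' y₁ m x +
        (f₂ y y₂ / f₂ y₂ y₂) • hT.lin w' y₂ m x := by
      conv_lhs => rw [hy]
      simp only [lin, LinearMap.comp_apply, hT.cc_add, hT.cc_smul]
    rw [this, e₁, e₂, e3, e4]
    module
  have hnil : ∀ r A, (Δ r)^[5] A = 0 := fun r A => by
    refine hT.iterate_zero _ _ (LinearMap.ext fun x => ?_) (LinearMap.ext fun x => ?_)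
      (LinearMap.ext fun x => ?_) A
    · simp [Module.End.mul_apply, ap_ap_inv]
    · simp [Module.End.mul_apply, ap_inv_ap]
    · simp only [Module.End.mul_apply, LinearMap.sub_apply, Module.End.one_apply,
        LinearEquiv.coe_coe, apEquiv_apply, LinearMap.zero_apply]
      simp only [ρ, hg.ap_rho, hg.add_left, hg.sub_left, hg.smul_left, hg.smul_right, fu.uu, fu.du,
        hud]
      match_scalars <;> ring
  have lem1 : ∀ k, ∀ {m}, hT.InRad M w m →
      (∀ y, f₂ y w = 0 → f₂ y w' = 0 → ∃ γ : F, ∀ x, Δ 1 (hT.lin w' y m) x = γ • x) →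
      (∀ y, f₂ y w = 0 → f₂ y w' = 0 → ∃ γ : F, ∀ x, (Δ t)^[k] (hT.lin w' y m) x = γ • x) →
      Scal m := by
    intro k
    induction k with
    | zero => exact fun _ _ h => h
    | succ k ih =>
      intro m hm h1 h2'
      obtain ⟨m', hm', hl⟩ := hstep hm t
      have hS : Scal m' := ih hm' (fun y hyw hyv => ⟨0, fun x => by
          rw [hl y hyw, ← hcomm, hΔscal t _ (h1 y hyw hyv), zero_smul]⟩)
        fun y hyw hyv => by
          rw [hl y hyw, ← Function.iterate_succ_apply]; exact h2' y hyw hyv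
      exact key hm h1 fun y hyw hyv => by rw [← hl y hyw]; exact hS y hyw hyv
  have lem2 : ∀ k, ∀ {m}, hT.InRad M w m →
      (∀ y, f₂ y w = 0 → f₂ y w' = 0 → ∃ γ : F, ∀ x, (Δ 1)^[k] (hT.lin w' y m) x = γ • x) →
      Scal m := by
    intro k
    induction k with
    | zero => exact fun _ h => h
    | succ k ih =>
      intro m hm h1
      obtain ⟨m', hm', hl⟩ := hstep hm 1
      have hS : Scal m' := ih hm' fun y hyw hyv => by
        rw [hl y hyw, ← Function.iterate_succ_apply]; exact h1 y hyw hyv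
      exact lem1 5 hm (fun y hyw hyv => by rw [← hl y hyw]; exact hS y hyw hyv)
        fun y _ _ => ⟨0, fun x => by rw [hnil, LinearMap.zero_apply, zero_smul]⟩
  have hS : Scal m := lem2 5 hm fun y _ _ => ⟨0, fun x => by
    rw [hnil, LinearMap.zero_apply, zero_smul]⟩
  obtain ⟨γ₁, g₁⟩ := hS y₁ fw.y₁w fw.y₁v
  obtain ⟨γ₂, g₂⟩ := hS y₂ fw.y₂w fw.y₂v
  set y₀ := (γ₁ / f₂ y₁ y₁) • y₁ + (γ₂ / f₂ y₂ y₂) • y₂ with hy₀
  have hy₀w : f₂ w y₀ = 0 := by
    simp [hy₀, hg₂.add_right, hg₂.smul_right, hg₂.symm w y₁, hg₂.symm w y₂, fw.y₁w, fw.y₂w]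
  have hy₀v : f₂ y₀ w' = 0 := by simp [hy₀, hg₂.add_left, hg₂.smul_left, fw.y₁v, fw.y₂v]
  refine ⟨y₀, hy₀w, hy₀v, ?_⟩
  have hx := hT.xs_rad hM fw hy₀w
  refine mul_inv_eq_one.mp (hT.rad_eq_one hM fw (hT.rad_mul hM fw hm (hT.rad_inv hM fw hx)) ?_ ?_)
  · refine LinearMap.ext fun x => ?_
    rw [hT.lin_mul hM fw hm (hT.rad_inv hM fw hx) fw.y₁w, hT.lin_inv hM fw hx fw.y₁w,
      hT.cc_xs_mov fw hy₀w fw.y₁w hy₀v, LinearMap.add_apply, g₁]
    simp [hy₀, hg₂.add_left, hg₂.smul_left, fw.y₁₂, fw.y₁₁]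
  · refine LinearMap.ext fun x => ?_
    rw [hT.lin_mul hM fw hm (hT.rad_inv hM fw hx) fw.y₂w, hT.lin_inv hM fw hx fw.y₂w,
      hT.cc_xs_mov fw hy₀w fw.y₂w hy₀v, LinearMap.add_apply, g₂]
    simp [hy₀, hg₂.add_left, hg₂.smul_left, hg₂.symm y₁ y₂, fw.y₁₂, fw.y₂₂]

end Data

end CfsgLib.Geometric.OrthThreeFour
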