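import Cfsg.Agent.Lib.Geometric.OrthThreeFour.SO
import Cfsg.Agent.Lib.Geometric.OrthTensorMax.Gen

/-!
In an overgroup of the stabiliser of the tensor decomposition, one long root element at an isotropic
slice gives all of `omegaGL`.
-/

set_option autoImplicit false
set_option linter.unusedSectionVars false

namespace CfsgLib.Geometric.OrthThreeFour

open Matrix QuadraticMap Tensor

variable {ι : Type} [Fintype ι] [DecidableEq ι] {F : Type*} [Field F]
variable {Q : QuadraticForm F (ι → F)} {e : ι ≃ Fin 3 × Fin 4} {P : GL ι F}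
  {f₁ : (Fin 3 → F) → (Fin 3 → F) → F} {f₂ : (Fin 4 → F) → (Fin 4 → F) → F}

namespace Data

/-- An element of `M` adding `A` of the contraction at `w` to the slice of `w`. -/
def Cen (hT : Data Q e P f₁ f₂) (M : Subgroup (GL ι F)) (w : Fin 4 → F)
    (A : (Fin 3 → F) →ₗ[F] (Fin 3 → F)) : Prop :=
  ∃ k ∈ M, ∀ X, ap k X = X + pt e P (A (hT.cc w X)) w

variable (hT : Data Q e P f₁ f₂) [Finite F] {M : Subgroup (GL ι F)}
  (hMI : M ≤ Cfsg.isometryGroup F (⇑Q))
  (hH : Cfsg.Geo.tensorProductSubgroup 3 4 e P ⊓ Cfsg.Geo.omegaGL (⇑Q) ≤ M)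
include hT

lemma sg_slice {w : Fin 4 → F} (hw : f₂ w w = 0) {a b : Fin 3 → F}
    (hu : Q (pt e P a w) = 0) (hp : polar Q (pt e P a w) (pt e P b w) = 0) (X : ι → F) :
    ap (Orth.sg Q (pt e P a w) (pt e P b w) hu hp) X =
      X + pt e P (hT.sym₁.wedge b a (hT.cc w X)) w := by
  rw [Orth.ap_sg, hT.polar_right, hT.polar_right, hT.Q_pt_iso _ hw, zero_mul, add_zero,
    hT.sym₁.wedge_apply, pt_sub_left, pt_smul_left, pt_smul_left]
  module

omit [Finite F] in
lemma Cen.add {w : Fin 4 → F} (hw : f₂ w w = 0) {A B : (Fin 3 → F) →ₗ[F] (Fin 3 → F)}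
    (h : hT.Cen M w A) (h' : hT.Cen M w B) : hT.Cen M w (A + B) := by
  obtain ⟨k, hk, hkx⟩ := h
  obtain ⟨k', hk', hkx'⟩ := h'
  refine ⟨k * k', mul_mem hk hk', fun X => ?_⟩
  rw [ap_mul, hkx', hkx, map_add, cc_pt, hw, zero_smul, add_zero, LinearMap.add_apply,
    pt_add_left]
  abel

omit [Finite F] in
lemma Cen.neg {w : Fin 4 → F} (hw : f₂ w w = 0) {A : (Fin 3 → F) →ₗ[F] (Fin 3 → F)}
    (h : hT.Cen M w A) : hT.Cen M w (-A) := by
  obtain ⟨k, hk, hkx⟩ := h
  refine ⟨k⁻¹, inv_mem hk, fun X => ap_injective k ?_⟩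
  rw [ap_ap_inv, hkx, map_add, cc_pt, hw, zero_smul, add_zero, LinearMap.neg_apply,
    ← ptl_apply e P w (-_), map_neg, ptl_apply]
  abel

include hMI in
omit [Finite F] in
/-- The maps occurring are skew. -/
lemma Cen.skew {w : Fin 4 → F} (hw : f₂ w w = 0) (hw0 : w ≠ 0)
    {A : (Fin 3 → F) →ₗ[F] (Fin 3 → F)} (h : hT.Cen M w A) (x y : Fin 3 → F) :
    f₁ (A x) y + f₁ x (A y) = 0 := by
  obtain ⟨k, hk, hkx⟩ := h
  obtain ⟨z, hz⟩ := hT.sym₂.exists_one hw0
  have h1 := Orth.polar_ap (hMI hk) (pt e P x z) (pt e P y z)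
  rw [hkx, hkx, cc_pt, cc_pt, hz, one_smul, one_smul] at h1
  simp only [polar_add_left, polar_add_right, hT.polar_pt, hz, hw, hT.sym₂.symm w z] at h1
  linear_combination h1

include hH

/-- Conjugation by a factorwise isometry. -/
lemma Cen.conj {w z : Fin 4 → F} {s : F} {a : GL (Fin 3) F} (ha : a ∈ isom f₁) {b : GL (Fin 4) F}
    (hb : b ∈ ⁅isom f₂, isom f₂⁆) (hbw : ap b w = s • z)
    {A : (Fin 3 → F) →ₗ[F] (Fin 3 → F)} (h : hT.Cen M w A) :
    hT.Cen M z ((s * s) • ((apEquiv a).toLinearMap ∘ₗ A ∘ₗ (apEquiv a⁻¹).toLinearMap)) := by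
  obtain ⟨m, hm, hmx⟩ := h
  have hbI : b⁻¹ ∈ isom f₂ := inv_mem (Subgroup.commutator_le_self _ hb)
  have key : ∀ a' : GL (Fin 3) F, kron e P a' (1 : GL (Fin 4) F) ∈ Cfsg.Geo.omegaGL (⇑Q) →
      hT.Cen M z ((s * s) • ((apEquiv a').toLinearMap ∘ₗ A ∘ₗ (apEquiv a'⁻¹).toLinearMap)) := by
    intro a' ha'
    have hk : kron e P a' b ∈ M := by
      have h1 := mul_mem (hH ⟨kron_mem e P a' 1, ha'⟩) (hH (hT.kron_right_mem hb))
      rwa [kron_mul, mul_one, one_mul] at h1
    refine ⟨kron e P a' b * m * (kron e P a' b)⁻¹, mul_mem (mul_mem hk hm) (inv_mem hk),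
      fun X => ?_⟩
    have h2 : hT.cc w (ap (kron e P a' b)⁻¹ X) = s • ap a'⁻¹ (hT.cc z X) := by
      rw [kron_inv, hT.cc_kron hbI, inv_inv, hbw, hT.cc_smul, ap_smul]
    rw [ap_mul, ap_mul, hmx, ap_add, ap_ap_inv, ap_kron, hbw, h2]
    simp only [LinearMap.smul_apply, LinearMap.comp_apply, LinearEquiv.coe_coe, apEquiv_apply,
      map_smul, ap_smul, pt_smul_left, pt_smul_right, smul_smul]
  rcases hT.good_of_isom ha with h1 | h1
  · exact key a h1
  · have h3 := key _ h1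
    have e1 : (apEquiv (negOne * a)).toLinearMap ∘ₗ A ∘ₗ (apEquiv (negOne * a)⁻¹).toLinearMap =
        (apEquiv a).toLinearMap ∘ₗ A ∘ₗ (apEquiv a⁻¹).toLinearMap := by
      have hinv : (negOne * a)⁻¹ = negOne * a⁻¹ := by
        rw [_root_.mul_inv_rev, inv_eq_of_mul_eq_one_right negOne_mul_self, negOne_comm]
      refine LinearMap.ext fun x => ?_
      simp only [LinearMap.comp_apply, LinearEquiv.coe_coe, apEquiv_apply, hinv, ap_mul, ap_negOne,
        map_neg]
      rw [neg_neg]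
    rwa [e1] at h3

lemma Cen.conj₁ {w : Fin 4 → F} {a : GL (Fin 3) F} (ha : a ∈ isom f₁)
    {A : (Fin 3 → F) →ₗ[F] (Fin 3 → F)} (h : hT.Cen M w A) :
    hT.Cen M w ((apEquiv a).toLinearMap ∘ₗ A ∘ₗ (apEquiv a⁻¹).toLinearMap) := by
  simpa using Cen.conj hT hH (z := w) (s := 1) ha (one_mem _) (by simp) h

omit hH in
lemma wedge_conj {a : GL (Fin 3) F} (ha : a ∈ isom f₁) (u p : Fin 3 → F) :
    (apEquiv a).toLinearMap ∘ₗ hT.sym₁.wedge u p ∘ₗ (apEquiv a⁻¹).toLinearMap =
      hT.sym₁.wedge (ap a u) (ap a p) := by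
  refine LinearMap.ext fun x => ?_
  obtain ⟨y, rfl⟩ : ∃ y, ap a y = x := ⟨_, ap_ap_inv a x⟩
  simp only [LinearMap.comp_apply, LinearEquiv.coe_coe, apEquiv_apply, ap_inv_ap,
    hT.sym₁.wedge_apply, ap_sub, ap_smul, mem_isom_iff.mp ha]

include hMI

/-- One root element gives all root elements at isotropic slices. -/
theorem root_all {w₀ : Fin 4 → F} (hw₀ : f₂ w₀ w₀ = 0) (hw₀0 : w₀ ≠ 0)
    {A : (Fin 3 → F) →ₗ[F] (Fin 3 → F)} (hA : hT.Cen M w₀ A) (hA0 : A ≠ 0) {w : Fin 4 → F}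
    (hw : f₂ w w = 0) (hw0 : w ≠ 0) (a b : Fin 3 → F) :
    OrthTensor.SgIn Q M (pt e P a w) (pt e P b w) := by
  have hg := hT.sym₁
  have h2 := hT.two_ne
  obtain ⟨β, hβ, s, hs, hβs⟩ := hT.exists_line_move hw hw0 hw₀ hw₀0
  set A' := (s * s) • A with hA'
  have hA'C : hT.Cen M w A' := by
    have h := Cen.conj hT hH (a := 1) (one_mem _) hβ hβs hA
    have e1 : (apEquiv (1 : GL (Fin 3) F)).toLinearMap ∘ₗ A ∘ₗ
        (apEquiv (1 : GL (Fin 3) F)⁻¹).toLinearMap = A := LinearMap.ext fun x => by simp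
    rwa [e1] at h
  have hA'0 : A' ≠ 0 := smul_ne_zero (mul_ne_zero hs hs) hA0
  obtain ⟨u, p, hu0, hu, hup, hp, hP⟩ := hg.exists_wedge (by simp) (P := hT.Cen M w)
    (fun B hB => Cen.skew hT hMI hw hw0 hB)
    (fun B x y hx hy hB => by
      rw [sub_eq_add_neg]
      exact Cen.add hT hw (Cen.conj₁ hT hH (hg.rho_mem_isom hx hy) hB) (Cen.neg hT hw hB))
    hA'C hA'0
  obtain ⟨u', d, fu⟩ := hT.exists_isoFrame hu hu0
  set β₀ := f₁ p d / f₁ d d with hβ₀
  have hpd : p = f₁ p u' • u + β₀ • d := by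
    conv_lhs => rw [fu.dec p, hg.symm p u, hup, zero_smul, add_zero]
  have hwp : hg.wedge u p = β₀ • hg.wedge u d := by
    refine LinearMap.ext fun x => ?_
    conv_lhs => rw [hpd]
    simp only [hg.wedge_apply, LinearMap.smul_apply, hg.add_right, hg.smul_right]
    module
  have hβ₀0 : β₀ ≠ 0 := fun h0 => hp (by
    rw [hpd, h0, zero_smul, add_zero]
    exact Submodule.smul_mem _ _ (Submodule.mem_span_singleton_self u))
  have h1' : f₁ u' u = 1 := by rw [hg.symm, fu.uv]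
  have hud : f₁ u d = 0 := by rw [hg.symm, fu.du]
  have hu'd : f₁ u' d = 0 := by rw [hg.symm, fu.dv]
  have hsum : ∀ t : F, f₁ (u + t • u') (u + t • u') = 2 * t := fun t => by
    simp only [hg.add_left, hg.add_right, hg.smul_left, hg.smul_right, fu.uu, fu.vv, fu.uv, h1']
    ring
  have hone : f₁ (u + u') (u + u') = 2 := by simpa using hsum 1
  have hone0 : f₁ (u + u') (u + u') ≠ 0 := by rw [hone]; exact h2
  have hall : ∀ t : F, hT.Cen M w (t • hg.wedge u d) := by
    intro t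
    by_cases ht : t = 0
    · exact ⟨1, one_mem M, fun X => by simp [ht, pt_zero_left]⟩
    set r := β₀ / t with hr
    have hr0 : r ≠ 0 := div_ne_zero hβ₀0 ht
    have hsr : f₁ (u + r • u') (u + r • u') ≠ 0 := by
      rw [hsum]; exact mul_ne_zero h2 hr0
    set h := hT.half (u + r • u') * hT.half (u + u') with hh
    have hhu : ap h u = r⁻¹ • u := by
      rw [hh, ap_mul, hT.ap_half hone0 u, hone, hg.add_right, fu.uu, fu.uv, zero_add, mul_one,
        div_self h2, one_smul, neg_add_cancel_left, hT.ap_half hsr, hsum, hg.add_right,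
        hg.smul_right, h1', fu.vv, mul_zero, add_zero]
      match_scalars <;> field_simp <;> ring
    have hhd : ap h d = d := by
      rw [hh, ap_mul, hT.ap_half_perp hone0 (by rw [hg.add_right, fu.du, fu.dv, add_zero]),
        ← neg_one_smul F d, ap_smul, hT.ap_half_perp hsr (by
          rw [hg.add_right, hg.smul_right, fu.du, fu.dv, mul_zero, add_zero]), neg_one_smul,
        neg_neg]
    have h3 := Cen.conj₁ hT hH (mul_mem (hT.half_mem _) (hT.half_mem _) : h ∈ isom f₁) hP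
    rw [hwp, LinearMap.smul_comp, LinearMap.comp_smul, hT.wedge_conj
      (mul_mem (hT.half_mem _) (hT.half_mem _) : h ∈ isom f₁), hhu, hhd] at h3
    convert h3 using 1
    refine LinearMap.ext fun x => ?_
    simp only [hg.wedge_apply, LinearMap.smul_apply, hg.smul_right, hr]
    match_scalars <;> field_simp
  have hall' : ∀ t : F, hT.Cen M w (t • hg.wedge u' d) := by
    intro t
    have h3 := Cen.conj₁ hT hH (hT.half_mem (u + u')) (hall (-t))
    rw [LinearMap.smul_comp, LinearMap.comp_smul, hT.wedge_conj (hT.half_mem _),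
      hT.ap_half hone0 u, hone, hg.add_right, fu.uu, fu.uv, zero_add, mul_one, div_self h2,
      one_smul, neg_add_cancel_left,
      hT.ap_half_perp hone0 (x := d) (by rw [hg.add_right, fu.du, fu.dv, add_zero])] at h3
    convert h3 using 1
    refine LinearMap.ext fun x => ?_
    simp only [hg.wedge_apply, LinearMap.smul_apply, hg.neg_right]
    module
  have huu' : ∀ t : F, hT.Cen M w (t • hg.wedge u u') := by
    intro t
    set r := -(t / f₁ d d) with hr
    have h3 := Cen.conj₁ hT hH (hg.rho_mem_isom fu.vv hu'd) (hall r)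
    rw [LinearMap.smul_comp, LinearMap.comp_smul, hT.wedge_conj (hg.rho_mem_isom fu.vv hu'd)] at h3
    have h4 := Cen.add hT hw (Cen.add hT hw h3 (hall (-r))) (hall' (-(r * f₁ d d / 2)))
    convert h4 using 1
    refine LinearMap.ext fun x => ?_
    have := fu.dd
    simp only [hg.wedge_apply, LinearMap.smul_apply, LinearMap.add_apply, hg.ap_rho, fu.uv, hud,
      fu.dv, hg.add_right, hg.sub_right, hg.smul_right, hr]
    match_scalars <;> field_simp <;> ring
  refine ⟨hT.Q_pt_iso a hw, by rw [hT.polar_pt, hw, mul_zero], ?_⟩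
  have hC := Cen.add hT hw (Cen.add hT hw
    (huu' (f₁ b u' * f₁ a u - f₁ b u * f₁ a u'))
    (hall (f₁ b u' * (f₁ a d / f₁ d d) - f₁ b d / f₁ d d * f₁ a u')))
    (hall' (f₁ b u * (f₁ a d / f₁ d d) - f₁ b d / f₁ d d * f₁ a u))
  obtain ⟨k, hk, hkx⟩ := hC
  convert hk using 1
  refine gl_ext fun X => ?_
  rw [hT.sg_slice hw, hkx]
  congr 2
  conv_lhs => rw [fu.dec a, fu.dec b]
  simp only [hg.wedge_apply, LinearMap.smul_apply, LinearMap.add_apply, hg.add_right, hg.smul_right]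
  module

omit hMI hH in
omit [Finite F] in
lemma polar_right' (X : ι → F) (a : Fin 3 → F) (z : Fin 4 → F) :
    polar Q X (pt e P a z) = f₂ (hT.dd a X) z := by
  have h : (polarBilin Q).flip (pt e P a z) = (hT.sym₂.fl z).comp (hT.dd a) :=
    ext_pt e P fun b y => by
      simp [polarBilin_apply_apply, hT.polar_pt, hT.sym₂.smul_left]
  simpa using LinearMap.congr_fun h X

omit hH in
/-- All roots at isotropic slices generate. -/
theorem omega_le_of_roots
    (hroot : ∀ w, f₂ w w = 0 → w ≠ 0 → ∀ a b, OrthTensor.SgIn Q M (pt e P a w) (pt e P b w)) :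
    Cfsg.Geo.omegaGL (⇑Q) ≤ M := by
  have hg := hT.sym₁
  have hg₂ := hT.sym₂
  -- one vector of the frame against another
  have cross : ∀ {v p q : Fin 3 → F}, f₁ q q ≠ 0 → f₁ p v = 0 → f₁ q v = 0 → f₁ q p = 0 →
      ∀ {w : Fin 4 → F}, f₂ w w = 0 → w ≠ 0 → ∀ y, OrthTensor.SgIn Q M (pt e P v w) (pt e P p y) := by
    intro v p q hq hpv hqv hqp w hw hw0 y
    have hQ := hT.Q_pt_iso v hw
    let S : Submodule F (Fin 4 → F) :=
      { carrier := {z | ∀ t : F, OrthTensor.SgIn Q M (pt e P v w) (pt e P p (t • z))}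
        add_mem' := fun ha hb t => by
          rw [smul_add, pt_add_right]; exact (ha t).add (hb t)
        zero_mem' := fun t => by rw [smul_zero, pt_zero_right]; exact OrthTensor.SgIn.zero hQ
        smul_mem' := fun s a ha t => by rw [smul_smul]; exact ha _ }
    have hiso : ∀ z, f₂ z z = 0 → z ∈ S := by
      intro z hz t
      by_cases hwz : f₂ w z = 0
      · obtain ⟨r, hr⟩ := Submodule.mem_span_singleton.mp (hT.minus w z hw hz hwz hw0)
        rw [← hr, smul_smul, pt_smul_right, ← pt_smul_left]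
        exact hroot w hw hw0 _ _
      have hz0 : z ≠ 0 := fun h => hwz (by rw [h, hg₂.zero_right])
      obtain ⟨hp', hX', hm⟩ := hroot z hz hz0 p q
      set r := -t / (f₁ q q * f₂ w z) with hr
      have h0 := hroot w hw hw0 v (r • q)
      have h1 := h0.map hMI hm
      have e1 : ap (Orth.sg Q _ _ hp' hX') (pt e P v w) = pt e P v w := by
        refine Orth.ap_sg_fix _ _ ?_ ?_
        · rw [hT.polar_pt, hg.symm v p, hpv, zero_mul]
        · rw [hT.polar_pt, hg.symm v q, hqv, zero_mul]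
      rw [e1, Orth.ap_sg, hT.polar_pt, hT.polar_pt, hT.Q_pt_iso q hz] at h1
      refine (h1.sub h0).congr ?_
      have hden : f₁ q q * f₂ w z ≠ 0 := mul_ne_zero hq hwz
      simp only [hg.smul_left, hqp, mul_zero, zero_mul, zero_smul, add_zero, zero_add,
        pt_smul_right]
      have : r * f₁ q q * f₂ w z = -t := by rw [hr]; field_simp
      rw [this]
      module
    have h0 := hg₂.eq_zero_of_iso (by simp) (L := S.mkQ) fun z hz => by
      rw [Submodule.mkQ_apply, Submodule.Quotient.mk_eq_zero]; exact hiso z hz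
    have hy : y ∈ S := by
      have h := LinearMap.congr_fun h0 y
      rwa [Submodule.mkQ_apply, LinearMap.zero_apply, Submodule.Quotient.mk_eq_zero] at h
    simpa using hy 1
  obtain ⟨u, u', d, fu⟩ := hT.exists_iso₁
  obtain ⟨p, q, fr⟩ := hT.exists_frame fu.dd
  obtain ⟨w₁, w₂, y₁, y₂, fw⟩ := hT.exists_iso₂
  have hvp : f₁ d p = 0 := by rw [hg.symm, fr.pv]
  have hvq : f₁ d q = 0 := by rw [hg.symm, fr.qv]
  have hpq : f₁ p q = 0 := by rw [hg.symm, fr.qp]
  have hfull : ∀ w, f₂ w w = 0 → w ≠ 0 → Orth.Full Q M (pt e P d w) := by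
    intro w hw hw0 hQw X hX
    obtain ⟨w', hw', hww'⟩ := hg₂.exists_hyp hw hw0
    have hw'0 : w' ≠ 0 := fun h => one_ne_zero (α := F) (by rw [← hww', h, hg₂.zero_right])
    have hline : ∀ y, f₂ y w = 0 → OrthTensor.SgIn Q M (pt e P d w) (pt e P d y) := by
      intro y hy
      obtain ⟨hp', hX', hm⟩ := cross (v := p) (p := d) (q := q) fr.hq hvp fr.qp fr.qv hw' hw'0
        ((f₁ p p)⁻¹ • y)
      have h0 := hroot w hw hw0 d p
      have h1 := h0.map hMI hm
      have e1 : ap (Orth.sg Q _ _ hp' hX') (pt e P d w) = pt e P d w := by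
        refine Orth.ap_sg_fix _ _ ?_ ?_
        · rw [hT.polar_pt, hvp, zero_mul]
        · rw [hT.polar_pt, hg₂.smul_right, hg₂.symm w y, hy, mul_zero, mul_zero]
      rw [e1, Orth.ap_sg, hT.polar_pt, hT.polar_pt, hww', fr.pv, zero_mul, zero_add] at h1
      refine ((h1.sub h0).add (cross (v := d) (p := p) (q := q) fr.hq fr.pv fr.qv fr.qp hw hw0
        ((Q (pt e P d ((f₁ p p)⁻¹ • y)) * f₁ p p) • w'))).congr ?_
      have := fr.hp
      simp only [pt_smul_right]
      match_scalars <;> field_simp <;> ring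
    have hX' : f₂ (hT.dd d X) w = 0 := by
      rwa [polar_comm, hT.polar_right'] at hX
    have hexp : X = pt e P d ((f₁ d d)⁻¹ • hT.dd d X) + pt e P p ((f₁ p p)⁻¹ • hT.dd p X) +
        pt e P q ((f₁ q q)⁻¹ • hT.dd q X) := by
      have h : LinearMap.id = (ptr e P d).comp ((f₁ d d)⁻¹ • hT.dd d) +
          (ptr e P p).comp ((f₁ p p)⁻¹ • hT.dd p) + (ptr e P q).comp ((f₁ q q)⁻¹ • hT.dd q) :=
        ext_pt e P fun a z => by
          conv_lhs => rw [LinearMap.id_apply, fr.dec a]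
          simp only [LinearMap.add_apply, LinearMap.comp_apply, LinearMap.smul_apply, dd_pt,
            ptr_apply, pt_add_left, pt_smul_left, pt_smul_right, smul_smul, div_eq_inv_mul]
      exact LinearMap.congr_fun h X
    have hall : OrthTensor.SgIn Q M (pt e P d w) X := by
      rw [hexp]
      exact ((hline _ (by rw [hg₂.smul_left, hX', mul_zero])).add
        (cross (v := d) (p := p) (q := q) fr.hq fr.pv fr.qv fr.qp hw hw0 _)).add
        (cross (v := d) (p := q) (q := p) fr.hp fr.qv fr.pv hpq hw hw0 _)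
    exact hall.2.2
  refine Orth.Full.le_of_pair hT.nondeg hT.five_le_card hMI (hfull w₁ fw.ww ?_) (hfull w₂ fw.vv ?_)
    (hT.Q_pt_iso _ fw.ww) (hT.Q_pt_iso _ fw.vv) ?_
  · exact fun h => one_ne_zero (α := F) (by rw [← fw.wv, h, hg₂.zero_left])
  · exact fun h => one_ne_zero (α := F) (by rw [← fw.wv, h, hg₂.zero_right])
  · rw [hT.polar_pt, fw.wv, mul_one]
    exact fu.dd

omit hMI hH in
/-- The stabiliser is proper. -/
theorem lt_omega :
    Cfsg.Geo.tensorProductSubgroup 3 4 e P ⊓ Cfsg.Geo.omegaGL (⇑Q) < Cfsg.Geo.omegaGL (⇑Q) := by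
  refine lt_of_le_of_ne inf_le_right fun he => ?_
  have hg := hT.sym₁
  obtain ⟨u, u', d, fu⟩ := hT.exists_iso₁
  obtain ⟨p, q, fr⟩ := hT.exists_frame fu.dd
  obtain ⟨w, w', y₁, y₂, fw⟩ := hT.exists_iso₂
  have hu := hT.Q_pt_iso p fw.ww
  have hX : polar Q (pt e P p w) (pt e P q w) = 0 := by rw [hT.polar_pt, fw.ww, mul_zero]
  have hm : Orth.sg Q _ _ hu hX ∈
      Cfsg.Geo.tensorProductSubgroup 3 4 e P ⊓ Cfsg.Geo.omegaGL (⇑Q) := by
    rw [he]; exact Orth.sg_mem hT.nondeg hT.five_le_card hu hX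
  obtain ⟨a, b, hab⟩ := (mem_iff e P _).mp hm.1
  have h := hab p w'
  rw [hT.sg_slice fw.ww, cc_pt, hT.sym₂.symm w' w, fw.wv, one_smul] at h
  have e1 := congrArg (hT.cc w) h
  have e2 := congrArg (hT.cc w') h
  simp only [map_add, cc_pt, fw.ww, fw.vv, fw.wv, hT.sym₂.symm w' w, zero_smul, one_smul,
    add_zero, zero_add, hg.wedge_apply, hg.symm p q, fr.qp, sub_zero] at e1 e2
  have k : f₂ (ap b w') w ≠ 0 := fun h0 => fr.hp (by rw [e1, h0, zero_smul, hg.zero_left])
  have k1 := congrArg (fun x => f₁ x q) e1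
  simp only [hg.smul_left, hg.symm p q, fr.qp] at k1
  have k2 := congrArg (fun x => f₁ x q) e2
  simp only [hg.smul_left, (mul_eq_zero.mp k1.symm).resolve_left k, mul_zero] at k2
  exact mul_ne_zero fr.hp fr.hq k2

end Data

end CfsgLib.Geometric.OrthThreeFour
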