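import Cfsg.Agent.Lib.Geometric.OrthThreeFour.Basic

/-!
Factorwise half-turns of the three-dimensional factor lie in `omegaGL`, so each isometry of that
factor does so up to sign.
-/

set_option autoImplicit false
set_option linter.unusedSectionVars false

namespace CfsgLib.Geometric.OrthThreeFour

open Matrix QuadraticMap Tensor
open scoped commutatorElement

variable {ι : Type} [Fintype ι] [DecidableEq ι] {F : Type*} [Field F]
variable {Q : QuadraticForm F (ι → F)} {e : ι ≃ Fin 3 × Fin 4} {P : GL ι F}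
  {f₁ : (Fin 3 → F) → (Fin 3 → F) → F} {f₂ : (Fin 4 → F) → (Fin 4 → F) → F}

/-- Minus one in the first factor. -/
def negOne : GL (Fin 3) F := ofEquiv (LinearEquiv.neg F)

@[simp] lemma ap_negOne (x : Fin 3 → F) : ap (negOne : GL (Fin 3) F) x = -x := by
  rw [negOne, ap_ofEquiv]; rfl

lemma negOne_mul_self : (negOne : GL (Fin 3) F) * negOne = 1 :=
  gl_ext fun x => by simp [ap_mul]

lemma negOne_comm (g : GL (Fin 3) F) : negOne * g = g * negOne :=
  gl_ext fun x => by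
    rw [ap_mul, ap_mul, ap_negOne, ap_negOne, ← neg_one_smul F x, ap_smul, neg_one_smul]

namespace Data

variable (hT : Data Q e P f₁ f₂)

/-- The half-turn of the first factor fixing `v`. -/
noncomputable def half (hT : Data Q e P f₁ f₂) (v : Fin 3 → F) : GL (Fin 3) F :=
  negOne * Orth.rf hT.sym₁.sq v

/-- The factorwise half-turn. -/
noncomputable def R (hT : Data Q e P f₁ f₂) (v : Fin 3 → F) : GL ι F :=
  kron e P (hT.half v) (1 : GL (Fin 4) F)

include hT

lemma rf_mem (v : Fin 3 → F) : Orth.rf hT.sym₁.sq v ∈ isom f₁ := by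
  rw [← hT.sym₁.isometryGroup_sq]; exact Orth.rf_mem_isom _

lemma ap_rf₁ {v : Fin 3 → F} (hv : f₁ v v ≠ 0) (x : Fin 3 → F) :
    ap (Orth.rf hT.sym₁.sq v) x = x - (2 * f₁ x v / f₁ v v) • v := by
  have h2 := hT.two_ne
  rw [Orth.ap_rf, hT.sym₁.sq_apply, hT.sym₁.polar_sq]
  congr 2
  field_simp

lemma negOne_mem : (negOne : GL (Fin 3) F) ∈ isom f₁ :=
  mem_isom_iff.mpr fun x y => by simp [hT.sym₁.neg_left, hT.sym₁.neg_right]

lemma half_mem (v : Fin 3 → F) : hT.half v ∈ isom f₁ := mul_mem hT.negOne_mem (hT.rf_mem v)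

lemma ap_half {v : Fin 3 → F} (hv : f₁ v v ≠ 0) (x : Fin 3 → F) :
    ap (hT.half v) x = -x + (2 * f₁ x v / f₁ v v) • v := by
  rw [half, ap_mul, ap_negOne, hT.ap_rf₁ hv]
  abel

lemma ap_half_self {v : Fin 3 → F} (hv : f₁ v v ≠ 0) : ap (hT.half v) v = v := by
  rw [hT.ap_half hv, mul_div_assoc, div_self hv, mul_one]
  module

lemma ap_half_perp {v x : Fin 3 → F} (hv : f₁ v v ≠ 0) (hx : f₁ x v = 0) :
    ap (hT.half v) x = -x := by
  rw [hT.ap_half hv, hx]; simp

lemma half_mul_self {v : Fin 3 → F} (hv : f₁ v v ≠ 0) : hT.half v * hT.half v = 1 :=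
  gl_ext fun x => by
    rw [ap_mul, hT.ap_half hv x, ap_add, ap_smul, hT.ap_half_self hv, ← neg_one_smul F x, ap_smul,
      hT.ap_half hv x, ap_one]
    module

lemma half_inv {v : Fin 3 → F} (hv : f₁ v v ≠ 0) : (hT.half v)⁻¹ = hT.half v :=
  inv_eq_of_mul_eq_one_right (hT.half_mul_self hv)

lemma half_eq {v p q : Fin 3 → F} (fr : Frame f₁ v p q) :
    hT.half v = Orth.rf hT.sym₁.sq p * Orth.rf hT.sym₁.sq q := by
  refine gl_ext fun x => ?_
  rw [ap_mul, hT.ap_half fr.hv, hT.ap_rf₁ fr.hq, ap_sub, ap_smul, hT.ap_rf₁ fr.hp x,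
    hT.ap_rf₁ fr.hp q, fr.qp, mul_zero, zero_div, zero_smul, sub_zero]
  conv_rhs => arg 1; arg 1; rw [fr.dec x]
  conv_lhs => arg 1; arg 1; rw [fr.dec x]
  match_scalars <;> field_simp <;> ring

/-- A similitude of the second factor with any multiplier. -/
lemma exists_similitude [Finite F] {ν : F} (hν : ν ≠ 0) :
    ∃ S : (Fin 4 → F) ≃ₗ[F] (Fin 4 → F), ∀ z z', f₂ (S z) (S z') = ν * f₂ z z' := by
  have hg := hT.sym₂
  have h2 := hT.two_ne
  obtain ⟨w, w', y₁, y₂, fr⟩ := hT.exists_iso₂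
  obtain ⟨α, β, hαβ⟩ := Orth.exists_combination fr.y₁₁ fr.y₂₂ h2 (ν * f₂ y₁ y₁)
  set k := f₂ y₂ y₂ / f₂ y₁ y₁ with hk
  set z₁ := α • y₁ + β • y₂ with hz₁
  set z₂ := (-(β * k)) • y₁ + α • y₂ with hz₂
  let S : (Fin 4 → F) →ₗ[F] (Fin 4 → F) :=
    ν • (hg.fl w').smulRight w + (hg.fl w).smulRight w' +
      ((f₂ y₁ y₁)⁻¹ • hg.fl y₁).smulRight z₁ + ((f₂ y₂ y₂)⁻¹ • hg.fl y₂).smulRight z₂
  have hS : ∀ z, S z = (ν * f₂ z w') • w + f₂ z w • w' + (f₂ z y₁ / f₂ y₁ y₁) • z₁ +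
      (f₂ z y₂ / f₂ y₂ y₂) • z₂ := fun z => by
    simp [S, smul_smul, div_eq_inv_mul]
  have hsim : ∀ z z', f₂ (S z) (S z') = ν * f₂ z z' := by
    intro z z'
    rw [hS, hS]
    conv_rhs => rw [fr.dec z, fr.dec z']
    have := fr.y₁₁
    have := fr.y₂₂
    simp only [hz₁, hz₂, hk, hg.add_left, hg.add_right, hg.smul_left, hg.smul_right, fr.ww, fr.vv,
      fr.wv, fr.y₁w, fr.y₁v, fr.y₂w, fr.y₂v, fr.y₁₂, hg.symm w' w, hg.symm w y₁, hg.symm w' y₁,
      hg.symm w y₂, hg.symm w' y₂, hg.symm y₁ y₂]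
    field_simp
    linear_combination (f₂ z y₁ * f₂ z' y₁ * f₂ y₂ y₂ +
      f₂ z y₂ * f₂ z' y₂ * f₂ y₁ y₁) * hαβ
  have hinj : Function.Injective S := by
    rw [injective_iff_map_eq_zero]
    intro z hz
    refine hg.eq_of_forall fun b => mul_left_cancel₀ hν ?_
    rw [← hsim, hz, hg.zero_left, hg.zero_left, mul_zero]
  exact ⟨LinearEquiv.ofBijective S ⟨hinj, LinearMap.injective_iff_surjective.mp hinj⟩,
    fun z z' => hsim z z'⟩

/-- Two reflections of the first factor at orthogonal vectors give an element of `omegaGL`. -/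
lemma pair_mem [Finite F] {a b : Fin 3 → F} (ha : f₁ a a ≠ 0) (hb : f₁ b b ≠ 0)
    (hba : f₁ b a = 0) :
    kron e P (Orth.rf hT.sym₁.sq a * Orth.rf hT.sym₁.sq b) (1 : GL (Fin 4) F) ∈
      Cfsg.Geo.omegaGL (⇑Q) := by
  have hg := hT.sym₁
  obtain ⟨d, fr⟩ := hT.exists_frame_of_pair ha hb hba
  set ν := f₁ a a / f₁ b b with hν
  have hν0 : ν ≠ 0 := div_ne_zero ha hb
  obtain ⟨S, hS⟩ := hT.exists_similitude hν0
  have hS' : ∀ z z', f₂ (S.symm z) (S.symm z') = ν⁻¹ * f₂ z z' := fun z z' => by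
    conv_rhs => rw [← S.apply_symm_apply z, ← S.apply_symm_apply z', hS]
    rw [inv_mul_cancel_left₀ hν0]
  let T : (ι → F) →ₗ[F] (ι → F) :=
    (ptr e P b).comp (S.toLinearMap.comp ((f₁ a a)⁻¹ • hT.dd a)) +
      (ptr e P a).comp (S.symm.toLinearMap.comp ((f₁ b b)⁻¹ • hT.dd b)) +
      (ptr e P d).comp ((f₁ d d)⁻¹ • hT.dd d)
  have hTpt : ∀ u z, T (pt e P u z) = (f₁ u a / f₁ a a) • pt e P b (S z) +
      (f₁ u b / f₁ b b) • pt e P a (S.symm z) + (f₁ u d / f₁ d d) • pt e P d z := fun u z => by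
    simp [T, pt_smul_right, smul_smul, div_eq_inv_mul]
  have hab : f₁ a b = 0 := by rw [hg.symm, hba]
  have hTT : T.comp T = LinearMap.id := ext_pt e P fun u z => by
    have h := fr.dec u
    conv_rhs => rw [LinearMap.id_apply, h]
    simp only [LinearMap.comp_apply, hTpt, map_add, map_smul, fr.pv, fr.qv, fr.qp, hab,
      hg.symm a d, hg.symm b d, LinearEquiv.symm_apply_apply, LinearEquiv.apply_symm_apply,
      pt_add_left, pt_smul_left, div_self ha, div_self hb, div_self fr.hq, zero_div, zero_smul,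
      one_smul, add_zero, zero_add]
  set L : GL ι F := ofEquiv (LinearEquiv.ofLinearMap T T hTT hTT) with hL
  have hap : ∀ X, ap L X = T X := fun X => by rw [hL, ap_ofEquiv]; rfl
  have hLI : L ∈ Cfsg.isometryGroup F (⇑Q) := by
    refine hT.isometry_of_pt fun x y x' y' => ?_
    rw [hap, hap, hTpt, hTpt]
    conv_rhs => rw [fr.dec x, fr.dec x']
    simp only [polar_add_left, polar_add_right, polar_smul_left, polar_smul_right, hT.polar_pt,
      hS, hS', fr.pv, fr.qv, fr.qp, hab, hg.symm a d, hg.symm b d, hg.add_left, hg.add_right,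
      hg.smul_left, hg.smul_right, smul_eq_mul, hν]
    have := fr.hq
    field_simp
    ring
  set Ka := kron e P (Orth.rf hg.sq a) (1 : GL (Fin 4) F) with hKa
  set Kb := kron e P (Orth.rf hg.sq b) (1 : GL (Fin 4) F) with hKb
  have hconj : L * Ka = Kb * L := gl_ext_pt e P fun u z => by
    rw [ap_mul, ap_mul, hap, hap, hKa, ap_kron, ap_one, hTpt, hTpt, ap_add, ap_add, ap_smul,
      ap_smul, ap_smul, hKb, ap_kron, ap_kron, ap_kron, ap_one, ap_one, ap_one,
      hT.ap_rf₁ ha u, hT.ap_rf₁ hb b, hT.ap_rf₁ hb a, hT.ap_rf₁ hb d]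
    simp only [hg.sub_left, hg.smul_left, fr.pv, fr.qv, fr.qp, hab, hg.symm a d, hg.symm b d,
      pt_sub_left, pt_smul_left, mul_zero, zero_div, zero_smul, sub_zero]
    match_scalars <;> field_simp
  have hKK : Ka * Ka = 1 := gl_ext_pt e P fun u z => by
    rw [hKa, ap_mul, ap_kron, ap_kron, ap_one, ap_one, ap_one, hT.ap_rf₁ ha u, ap_sub, ap_smul,
      hT.ap_rf₁ ha u, hT.ap_rf₁ ha a, mul_div_assoc, mul_div_assoc, div_self ha]
    congr 1
    module
  have hLL : L * L = 1 := gl_ext fun X => by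
    rw [ap_mul, hap, hap, ap_one]; exact LinearMap.congr_fun hTT X
  have key : kron e P (Orth.rf hg.sq a * Orth.rf hg.sq b) (1 : GL (Fin 4) F) = ⁅Ka, L⁆ := by
    rw [commutatorElement_def, inv_eq_of_mul_eq_one_right hKK, inv_eq_of_mul_eq_one_right hLL,
      mul_assoc Ka L Ka, hconj, mul_assoc, mul_assoc Kb L L, hLL, mul_one, hKa, hKb, kron_mul,
      one_mul]
  rw [key, Orth.omegaGL_eq]
  exact Subgroup.commutator_mem_commutator (hT.kron_isometry (hT.rf_mem a) (one_mem _)) hLI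

/-- The factorwise half-turns lie in the stabiliser in `omegaGL`. -/
lemma R_mem [Finite F] {v : Fin 3 → F} (hv : f₁ v v ≠ 0) :
    hT.R v ∈ Cfsg.Geo.tensorProductSubgroup 3 4 e P ⊓ Cfsg.Geo.omegaGL (⇑Q) := by
  obtain ⟨p, q, fr⟩ := hT.exists_frame hv
  refine ⟨kron_mem e P _ _, ?_⟩
  rw [R, hT.half_eq fr]
  exact hT.pair_mem fr.hp fr.hq fr.qp

/-- A product of reflections carries a vector to one of the same value, fixing what is orthogonal
to both. -/
lemma exists_rf_move {S : Subgroup (GL (Fin 3) F)}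
    (hS : ∀ v, f₁ v v ≠ 0 → Orth.rf hT.sym₁.sq v ∈ S) {x y : Fin 3 → F} (hy : f₁ y y ≠ 0)
    (hxy : f₁ x x = f₁ y y) :
    ∃ h ∈ S, ap h x = y ∧ ∀ z, f₁ z x = 0 → f₁ z y = 0 → ap h z = z := by
  have hg := hT.sym₁
  have h2 := hT.two_ne
  by_cases hd : f₁ (x - y) (x - y) = 0
  · have hs : f₁ (x + y) (x + y) ≠ 0 := by
      intro h
      simp only [hg.add_left, hg.add_right, hg.sub_left, hg.sub_right, hg.symm y x, hxy] at h hd
      exact mul_ne_zero (mul_ne_zero h2 h2) hy (by linear_combination h + hd)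
    refine ⟨_, mul_mem (hS y hy) (hS _ hs), ?_, fun z hzx hzy => ?_⟩
    · rw [ap_mul, hT.ap_rf₁ hs, show 2 * f₁ x (x + y) / f₁ (x + y) (x + y) = 1 by
        rw [div_eq_one_iff_eq hs]
        simp only [hg.add_left, hg.add_right, hg.symm y x, hxy]
        ring, one_smul, sub_add_cancel_left, hT.ap_rf₁ hy, hg.neg_left]
      match_scalars
      field_simp
      ring
    · rw [ap_mul, hT.ap_rf₁ hs, hg.add_right, hzx, hzy, add_zero, mul_zero, zero_div, zero_smul,
        sub_zero, hT.ap_rf₁ hy, hzy, mul_zero, zero_div, zero_smul, sub_zero]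
  · refine ⟨_, hS _ hd, ?_, fun z hzx hzy => ?_⟩
    · rw [hT.ap_rf₁ hd, show 2 * f₁ x (x - y) / f₁ (x - y) (x - y) = 1 by
        rw [div_eq_one_iff_eq hd]
        simp only [hg.sub_left, hg.sub_right, hg.symm y x, hxy]
        ring, one_smul, sub_sub_cancel]
    · rw [hT.ap_rf₁ hd, hg.sub_right, hzx, hzy, sub_zero, mul_zero, zero_div, zero_smul, sub_zero]

/-- Every isometry of the first factor lies in `omegaGL` up to sign. -/
theorem good_of_isom [Finite F] {g : GL (Fin 3) F} (hgI : g ∈ isom f₁) :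
    kron e P g (1 : GL (Fin 4) F) ∈ Cfsg.Geo.omegaGL (⇑Q) ∨
      kron e P (negOne * g) (1 : GL (Fin 4) F) ∈ Cfsg.Geo.omegaGL (⇑Q) := by
  let φ : GL (Fin 3) F →* GL ι F :=
    MonoidHom.mk' (fun a => kron e P a (1 : GL (Fin 4) F)) fun a a' => by
      rw [kron_mul, one_mul]
  let O := Cfsg.Geo.omegaGL (⇑Q)
  let S : Subgroup (GL (Fin 3) F) :=
    { carrier := {a | a ∈ isom f₁ ∧ (φ a ∈ O ∨ φ (negOne * a) ∈ O)}
      one_mem' := ⟨one_mem _, Or.inl (by rw [map_one]; exact one_mem O)⟩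
      mul_mem' := fun {a a'} ha ha' => ⟨mul_mem ha.1 ha'.1, by
        rcases ha.2 with h | h <;> rcases ha'.2 with h' | h'
        · exact Or.inl (by rw [map_mul]; exact mul_mem h h')
        · refine Or.inr ?_
          rw [← mul_assoc, negOne_comm, mul_assoc, map_mul]
          exact mul_mem h h'
        · refine Or.inr ?_
          rw [← mul_assoc, map_mul]
          exact mul_mem h h'
        · refine Or.inl ?_
          have e : a * a' = (negOne * a) * (negOne * a') := by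
            rw [mul_assoc, ← mul_assoc a, ← negOne_comm a, mul_assoc, ← mul_assoc, negOne_mul_self,
              one_mul]
          rw [e, map_mul]
          exact mul_mem h h'⟩
      inv_mem' := fun {a} ha => ⟨inv_mem ha.1, by
        rcases ha.2 with h | h
        · exact Or.inl (by rw [map_inv]; exact inv_mem h)
        · refine Or.inr ?_
          have e : negOne * a⁻¹ = (negOne * a)⁻¹ := by
            rw [_root_.mul_inv_rev, inv_eq_of_mul_eq_one_right negOne_mul_self, negOne_comm]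
          rw [e, map_inv]
          exact inv_mem h⟩ }
  have hrf : ∀ v, f₁ v v ≠ 0 → Orth.rf hT.sym₁.sq v ∈ S := fun v hv =>
    ⟨hT.rf_mem v, Or.inr (hT.R_mem hv).2⟩
  suffices hgS : g ∈ S from hgS.2
  obtain ⟨u, u', d, fu⟩ := hT.exists_iso₁
  obtain ⟨p, q, fr⟩ := hT.exists_frame fu.dd
  have hg := hT.sym₁
  have hI := mem_isom_iff.mp hgI
  obtain ⟨h₁, hh₁, e₁, -⟩ := hT.exists_rf_move hrf fr.hv (hI d d)
  set g₁ := h₁ * g with hg₁
  have hI₁ := mem_isom_iff.mp (mul_mem hh₁.1 hgI : g₁ ∈ isom f₁)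
  have hd₁ : ap g₁ d = d := by rw [hg₁, ap_mul, e₁]
  have hp₁ : f₁ (ap g₁ p) d = 0 := by
    conv_lhs => rw [← hd₁]
    rw [hI₁, fr.pv]
  obtain ⟨h₂, hh₂, e₂, hfix⟩ := hT.exists_rf_move hrf fr.hp (hI₁ p p)
  set g₂ := h₂ * g₁ with hg₂
  have hI₂ := mem_isom_iff.mp (mul_mem hh₂.1 (mul_mem hh₁.1 hgI) : g₂ ∈ isom f₁)
  have hd₂ : ap g₂ d = d := by
    rw [hg₂, ap_mul, hd₁]
    exact hfix d (by rw [hg.symm, hp₁]) (by rw [hg.symm, fr.pv])
  have hp₂ : ap g₂ p = p := by rw [hg₂, ap_mul, e₂]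
  have a1 : f₁ (ap g₂ q) d = 0 := by
    conv_lhs => rw [← hd₂]
    rw [hI₂, fr.qv]
  have a2 : f₁ (ap g₂ q) p = 0 := by
    conv_lhs => rw [← hp₂]
    rw [hI₂, fr.qp]
  set s := f₁ (ap g₂ q) q / f₁ q q with hs
  have hq₂ : ap g₂ q = s • q := by
    conv_lhs => rw [fr.dec (ap g₂ q), a1, a2, zero_div, zero_div, zero_smul, zero_smul, zero_add,
      zero_add]
  have hss : s * s = 1 := by
    have h := hI₂ q q
    rw [hq₂, hg.smul_left, hg.smul_right] at h
    exact mul_right_cancel₀ fr.hq (by linear_combination h)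
  have hgS₂ : g₂ ∈ S := by
    rcases mul_self_eq_one_iff.mp hss with h1 | h1
    · have h : g₂ = 1 := gl_ext fun x => by
        rw [fr.dec x]
        simp only [ap_add, ap_smul, hd₂, hp₂, hq₂, h1, one_smul, ap_one]
      rw [h]
      exact one_mem S
    · have h : g₂ = Orth.rf hg.sq q := gl_ext fun x => by
        rw [fr.dec x]
        have := hT.two_ne
        simp only [ap_add, ap_smul, hd₂, hp₂, hq₂, h1, hT.ap_rf₁ fr.hq, hg.add_left, hg.smul_left,
          hg.symm d q, hg.symm p q, fr.qv, fr.qp, mul_zero, zero_div, zero_smul, sub_zero,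
          zero_add]
        match_scalars <;> field_simp <;> ring
      rw [h]
      exact hrf q fr.hq
  have e : g = h₁⁻¹ * (h₂⁻¹ * g₂) := by rw [hg₂, inv_mul_cancel_left, hg₁, inv_mul_cancel_left]
  rw [e]
  exact mul_mem (inv_mem hh₁) (mul_mem (inv_mem hh₂) hgS₂)

end Data

end CfsgLib.Geometric.OrthThreeFour
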