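import Cfsg.Agent.Lib.Geometric.OrthThreeFour.Radical
import Cfsg.Agent.Lib.Geometric.Orth.TensorThree

/-!
In an overgroup of the stabiliser without long root elements at isotropic slices an element carrying
an isotropic slice into one lies in the stabiliser.
-/

set_option autoImplicit false
set_option linter.unusedSectionVars false

namespace CfsgLib.Geometric.OrthThreeFour

open Matrix QuadraticMap Tensor

variable {ι : Type} [Fintype ι] [DecidableEq ι] {F : Type*} [Field F]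
variable {Q : QuadraticForm F (ι → F)} {e : ι ≃ Fin 3 × Fin 4} {P : GL ι F}
  {f₁ : (Fin 3 → F) → (Fin 3 → F) → F} {f₂ : (Fin 4 → F) → (Fin 4 → F) → F}

local notation "T₀" => Cfsg.Geo.tensorProductSubgroup 3 4 e P

namespace Data

variable (hT : Data Q e P f₁ f₂)
include hT

lemma exists_aniso₁ [Finite F] : ∃ d, f₁ d d ≠ 0 := by
  obtain ⟨u, u', d, fu⟩ := hT.exists_iso₁
  exact ⟨d, fu.dd⟩

/-- An isotropic vector orthogonal to an anisotropic one extends to a frame. -/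
lemma exists_isoFrame_perp {v x : Fin 3 → F} (hv : f₁ v v ≠ 0) (hxx : f₁ x x = 0) (hx0 : x ≠ 0)
    (hxv : f₁ x v = 0) : ∃ x', IsoFrame f₁ x x' v := by
  have hg := hT.sym₁
  have := hT.two_ne
  have hvx : f₁ v x = 0 := by rw [hg.symm, hxv]
  obtain ⟨x₀, hx₀⟩ := hg.exists_one hx0
  set x₁ := x₀ - (f₁ x₀ v / f₁ v v) • v with hx₁
  have e1 : f₁ x₁ x = 1 := by
    rw [hx₁, hg.sub_left, hg.smul_left, hvx, mul_zero, sub_zero, hx₀]
  have e1' : f₁ x x₁ = 1 := by rw [hg.symm, e1]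
  have e2 : f₁ x₁ v = 0 := by
    rw [hx₁, hg.sub_left, hg.smul_left, div_mul_cancel₀ _ hv, sub_self]
  set x' := x₁ - ((2 : F)⁻¹ * f₁ x₁ x₁) • x with hx'
  refine ⟨x', hT.isoFrame_of hxx ?_ ?_ hvx ?_ hv⟩
  · simp only [hx', hg.sub_left, hg.sub_right, hg.smul_left, hg.smul_right, e1, e1', hxx]
    field_simp
    ring
  · simp only [hx', hg.sub_right, hg.smul_right, hxx, e1']; ring
  · rw [hg.symm]; simp only [hx', hg.sub_left, hg.smul_left, e2, hxv]; ring

/-- The determinant of a similitude of the first factor. -/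
lemma det_sq (β : (Fin 3 → F) →ₗ[F] (Fin 3 → F)) {ν : F}
    (h : ∀ y y', f₁ (β y) (β y') = ν * f₁ y y') :
    (LinearMap.toMatrix' β).det * (LinearMap.toMatrix' β).det = ν ^ 3 := by
  classical
  have hs := hT.sym₁.symmetric
  set M := LinearMap.toMatrix' β with hM
  set G := Cfsg.Geo.gramMatrix f₁ with hG
  have hfG : ∀ x y, f₁ x y = x ⬝ᵥ G *ᵥ y := fun x y => by
    rw [Orth.bilinear_eq_formOfGram hs.bilinear x y]
    simp only [Cfsg.Geo.formOfGram, dotProduct, Matrix.mulVec, Finset.mul_sum, id, mul_assoc, hG]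
  have hdet : G.det ≠ 0 := by
    intro h0
    obtain ⟨z, hz0, hz⟩ := Matrix.exists_mulVec_eq_zero_iff.mpr h0
    obtain ⟨x, hx⟩ := (hs.nondegenerate z hz0).1
    exact hx (by rw [hfG, hz, dotProduct_zero])
  have hconj : Mᵀ * G * M = ν • G := by
    ext i j
    have h1 := h (Pi.single i 1) (Pi.single j 1)
    rw [hfG, hfG, ← LinearMap.toMatrix'_mulVec β, ← LinearMap.toMatrix'_mulVec β, ← hM,
      Matrix.mulVec_mulVec, dotProduct_mulVec, ← Matrix.transpose_transpose M,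
      Matrix.mulVec_transpose, Matrix.transpose_transpose M, Matrix.vecMul_vecMul,
      ← dotProduct_mulVec, single_one_dotProduct, single_one_dotProduct] at h1
    simpa [Matrix.mul_assoc, Matrix.mulVec_single_one] using h1
  have h2 := congrArg Matrix.det hconj
  rw [Matrix.det_mul, Matrix.det_mul, Matrix.det_transpose, Matrix.det_smul,
    Fintype.card_fin] at h2
  exact mul_right_cancel₀ hdet (by linear_combination h2)

/-- A similitude of the first factor is a multiple of an isometry. -/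
lemma exists_isom_of_similitude [Finite F] (β : (Fin 3 → F) →ₗ[F] (Fin 3 → F)) {ν : F}
    (hν : ν ≠ 0) (h : ∀ y y', f₁ (β y) (β y') = ν * f₁ y y') :
    ∃ ρ : F, ρ ≠ 0 ∧ ρ * ρ = ν ∧ ∃ a ∈ isom f₁, ∀ x, β x = ρ • ap a x := by
  have hg := hT.sym₁
  have h3 := hT.det_sq β h
  set M := LinearMap.toMatrix' β
  set ρ := M.det / ν
  have hρ0 : ρ ≠ 0 := div_ne_zero (fun h0 => by
    rw [h0, mul_zero] at h3; exact pow_ne_zero 3 hν h3.symm) hν
  have hρ : ρ * ρ = ν := by simp only [ρ]; field_simp; linear_combination h3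
  have hinj : Function.Injective (ρ⁻¹ • β) := by
    rw [injective_iff_map_eq_zero]
    intro x hx
    refine hg.eq_of_forall fun b => mul_left_cancel₀ hν ?_
    have hβ : β x = 0 := (smul_eq_zero.mp hx).resolve_left (inv_ne_zero hρ0)
    rw [← h, hβ, hg.zero_left, hg.zero_left, mul_zero]
  let a : GL (Fin 3) F :=
    ofEquiv (LinearEquiv.ofBijective _ ⟨hinj, LinearMap.injective_iff_surjective.mp hinj⟩)
  have ha : ∀ x, ap a x = ρ⁻¹ • β x := fun x => by simp only [a, ap_ofEquiv]; rfl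
  refine ⟨ρ, hρ0, hρ, a, mem_isom_iff.mpr fun x y => ?_, fun x => by
    rw [ha, smul_inv_smul₀ hρ0]⟩
  rw [ha, ha, hg.smul_left, hg.smul_right, h, ← hρ]
  field_simp

/-- An isometry in the stabiliser is a product of isometries of the factors. -/
lemma factor [Finite F] {g : GL ι F} (hg : g ∈ T₀) (hgI : g ∈ Cfsg.isometryGroup F (⇑Q)) :
    ∃ a ∈ isom f₁, ∃ b ∈ isom f₂, g = kron e P a b := by
  obtain ⟨a, b, hab⟩ := (mem_iff e P g).mp hg
  have key : ∀ x x' y y', f₁ (ap a x) (ap a x') * f₂ (ap b y) (ap b y') = f₁ x x' * f₂ y y' :=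
    fun x x' y y' => by rw [← hT.polar_pt, ← hab, ← hab, Orth.polar_ap hgI, hT.polar_pt]
  obtain ⟨w, w', y₁, y₂, fw⟩ := hT.exists_iso₂
  obtain ⟨d, hd⟩ := hT.exists_aniso₁
  set μ := f₂ (ap b y₁) (ap b y₁) / f₂ y₁ y₁ with hμ
  have ha : ∀ x x', μ * f₁ (ap a x) (ap a x') = f₁ x x' := fun x x' => by
    rw [hμ, div_mul_eq_mul_div, mul_comm, key, mul_div_assoc, div_self fw.y₁₁, mul_one]
  have hμ0 : μ ≠ 0 := fun h0 => hd (by rw [← ha, h0, zero_mul])
  obtain ⟨ρ, hρ0, hρ, a', ha'I, ha'⟩ := hT.exists_isom_of_similitude (apEquiv a).toLinearMap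
    (inv_ne_zero hμ0) fun y y' => by rw [← ha y y', inv_mul_cancel_left₀ hμ0]; rfl
  set b' : GL (Fin 4) F :=
    ofEquiv ((apEquiv b).trans (LinearEquiv.smulOfNeZero F _ ρ hρ0)) with hb'
  have apb : ∀ y, ap b' y = ρ • ap b y := fun y => by rw [hb', ap_ofEquiv]; rfl
  simp only [LinearEquiv.coe_coe, apEquiv_apply] at ha'
  have hgab : g = kron e P a' b' := gl_ext_pt e P fun x y => by
    rw [hab, ap_kron, apb, ha', pt_smul_left, pt_smul_right]
  refine ⟨a', ha'I, b', mem_isom_iff.mpr fun y y' => mul_left_cancel₀ hd ?_, hgab⟩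
  have h1 := key d d y y'
  rw [ha' d, hT.sym₁.smul_left, hT.sym₁.smul_right, mem_isom_iff.mp ha'I] at h1
  rw [apb, apb, hT.sym₂.smul_left, hT.sym₂.smul_right]
  linear_combination h1

variable [Finite F] {M : Subgroup (GL ι F)} (hM : hT.Small M)

omit hM in
/-- A map commuting with the half-turns is scalar. -/
lemma scalar_of_half {L : (Fin 3 → F) →ₗ[F] (Fin 3 → F)}
    (h : ∀ v, f₁ v v ≠ 0 → ∀ x, L (ap (hT.half v) x) = ap (hT.half v) (L x)) :
    ∃ c : F, ∀ x, L x = c • x := by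
  have hg := hT.sym₁
  have h2 := hT.two_ne
  obtain ⟨t, ht0, ht⟩ := hT.many
  have heig : ∀ v, f₁ v v ≠ 0 → ∃ c : F, L v = c • v := by
    intro v hv
    have h1 := h v hv v
    rw [hT.ap_half_self hv, hT.ap_half hv] at h1
    refine ⟨f₁ (L v) v / f₁ v v, smul_right_injective (Fin 3 → F) h2 ?_⟩
    linear_combination (norm := (simp only [smul_smul, mul_div_assoc]; module)) h1
  have hpair : ∀ v p, f₁ v v ≠ 0 → f₁ p p ≠ 0 → f₁ p v = 0 → ∀ a b : F, L v = a • v →
      L p = b • p → a = b := by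
    intro v p hv hp hpv a b ha hb
    have hvp : f₁ v p = 0 := by rw [hg.symm, hpv]
    obtain ⟨r, hr0, hr⟩ : ∃ r : F, r ≠ 0 ∧ f₁ (v + r • p) (v + r • p) ≠ 0 := by
      by_contra hc
      push Not at hc
      have e1 := hc 1 one_ne_zero
      have e2 := hc t ht0
      simp only [hg.add_left, hg.add_right, hg.smul_left, hg.smul_right, hpv, hvp] at e1 e2
      have : (t * t - 1) * f₁ p p = 0 := by linear_combination e2 - e1
      exact mul_ne_zero (sub_ne_zero.mpr ht) hp this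
    obtain ⟨c, hc⟩ := heig _ hr
    rw [map_add, map_smul, ha, hb] at hc
    have e1 := congrArg (fun x => f₁ x v) hc
    have e2 := congrArg (fun x => f₁ x p) hc
    simp only [hg.add_left, hg.smul_left, hpv, hvp, mul_zero, add_zero, zero_add] at e1 e2
    rw [← mul_assoc, ← mul_assoc] at e2
    rw [mul_right_cancel₀ hv e1, mul_left_cancel₀ hr0 (show r * b = r * c by
      linear_combination mul_right_cancel₀ hp e2)]
  obtain ⟨v, hv⟩ := hT.exists_aniso₁
  obtain ⟨p, q, fr⟩ := hT.exists_frame hv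
  obtain ⟨a, ha⟩ := heig v fr.hv
  obtain ⟨b, hb⟩ := heig p fr.hp
  obtain ⟨c, hc⟩ := heig q fr.hq
  refine ⟨a, fun x => ?_⟩
  conv_lhs => rw [fr.dec x, map_add, map_add, map_smul, map_smul, map_smul, ha, hb, hc,
    ← hpair v p fr.hv fr.hp fr.pv a b ha hb, ← hpair v q fr.hv fr.hq fr.qv a c ha hc]
  conv_rhs => rw [fr.dec x]
  module

omit hM in
lemma xs_mul {w y y' : Fin 4 → F} (hw : f₂ w w = 0) (hy : f₂ w y = 0) (hy' : f₂ w y' = 0) :
    hT.xs w y hw hy * hT.xs w y' hw hy' =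
      hT.xs w (y + y') hw (by rw [hT.sym₂.add_right, hy, hy', add_zero]) := by
  simp only [xs, OrthTensor.SymForm.rho, kron_mul, one_mul, Orth.sg_mul']

omit hM in
lemma ap_xs_perp {w y : Fin 4 → F} (hw : f₂ w w = 0) (hy : f₂ w y = 0) {X : ι → F}
    (hX : hT.cc w X = 0) :
    ap (hT.xs w y hw hy) X = X - pt e P (hT.cc y X) w := by
  rw [hT.ap_xs, hX, pt_zero_left, smul_zero, add_zero, add_zero]

variable {w w' y₁ y₂ : Fin 4 → F} (fw : WFrame f₂ w w' y₁ y₂)

omit hM in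
/-- The orthogonal of a slice is kept by an isometry keeping the slice. -/
lemma cc_slice_map {g : GL ι F} (hg : g ∈ Cfsg.isometryGroup F (⇑Q))
    {G : (Fin 3 → F) →ₗ[F] (Fin 3 → F)} (hG : Function.Surjective G)
    (h : ∀ u, ap g (pt e P u w) = pt e P (G u) w) {X : ι → F} (hX : hT.cc w X = 0) :
    hT.cc w (ap g X) = 0 := by
  refine hT.sym₁.eq_of_forall fun a => ?_
  obtain ⟨u, rfl⟩ := hG a
  rw [hT.cc_ap hg (h u), hX]
  simp [hT.sym₁.zero_left]

include hM fw

/-- The contractions transform along an element keeping the slice. -/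
lemma exists_transport {g : GL ι F} (hg : g ∈ M) {G : (Fin 3 → F) →ₗ[F] (Fin 3 → F)}
    (hG : Function.Bijective G) (h : ∀ u, ap g (pt e P u w) = pt e P (G u) w) {y : Fin 4 → F}
    (hy : f₂ y w = 0) : ∃ a, ∀ X, hT.cc w X = 0 → hT.cc y (ap g X) = G (hT.cc a X) := by
  have hgI := hM.le_isom hg
  have hy' : f₂ w y = 0 := hT.sym₂.eq_zero_comm.mp hy
  have hx := hT.xs_rad hM fw hy'
  have hinv : ∀ u, ∃ u', ap g⁻¹ (pt e P u w) = pt e P u' w := fun u => by
    obtain ⟨u', rfl⟩ := hG.2 u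
    exact ⟨u', by rw [← h, ap_inv_ap]⟩
  have hm : hT.InRad M w (g⁻¹ * hT.xs w y fw.ww hy' * g) := by
    refine ⟨mul_mem (mul_mem (inv_mem hg) hx.1) hg, fun u => ?_, fun X hX => ?_⟩
    · rw [ap_mul, ap_mul, h, hx.2.1, ← h, ap_inv_ap]
    · obtain ⟨v, hv⟩ := hx.2.2 _ (hT.cc_slice_map hgI hG.2 h hX)
      rw [ptl_apply] at hv
      obtain ⟨v', hv'⟩ := hinv v
      rw [ap_mul, ap_mul, show ap (hT.xs w y fw.ww hy') (ap g X) = pt e P v w + ap g X by
        rw [hv, sub_add_cancel], ap_add, hv', ap_inv_ap, add_sub_cancel_right]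
      exact pt_mem_slice e P _ _
  obtain ⟨a, ha, -, hma⟩ := hT.rad_eq hM fw hm
  refine ⟨a, fun X hX => ?_⟩
  have h1 : ap g (ap (hT.xs w a fw.ww ha) X) = ap (hT.xs w y fw.ww hy') (ap g X) := by
    rw [← hma, ap_mul, ap_mul, ap_ap_inv]
  rw [hT.ap_xs_perp fw.ww ha hX, hT.ap_xs_perp fw.ww hy' (hT.cc_slice_map hgI hG.2 h hX), ap_sub,
    h, sub_right_inj] at h1
  exact (pt_inj_left e P (hT.w_ne fw) h1).symm

/-- The map induced on the slice is a similitude. -/
lemma slice_similitude {g : GL ι F} (hg : g ∈ M) {G : (Fin 3 → F) →ₗ[F] (Fin 3 → F)}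
    (hG : Function.Bijective G) (h : ∀ u, ap g (pt e P u w) = pt e P (G u) w) :
    ∃ ν : F, ν ≠ 0 ∧ ∀ u u', f₁ (G u) (G u') = ν * f₁ u u' := by
  have hgI := hM.le_isom hg
  obtain ⟨a₁, ha₁⟩ := hT.exists_transport hM fw hg hG h fw.y₁w
  obtain ⟨a₂, ha₂⟩ := hT.exists_transport hM fw hg hG h fw.y₂w
  set c := (f₂ y₁ y₁)⁻¹ * (f₂ y₁ a₁ * f₂ y₁ a₁) + (f₂ y₂ y₂)⁻¹ * (f₂ y₁ a₂ * f₂ y₁ a₂) with hc
  have key : ∀ u u', f₁ u u' * f₂ y₁ y₁ = f₁ (G u) (G u') * c := by
    intro u u'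
    have hz : ∀ v, hT.cc w (pt e P v y₁) = 0 := fun v => by rw [cc_pt, fw.y₁w, zero_smul]
    rw [← hT.polar_pt, ← Orth.polar_ap hgI, hT.polar_perp fw (hT.cc_slice_map hgI hG.2 h (hz u))
      (hT.cc_slice_map hgI hG.2 h (hz u')), ha₁ _ (hz u), ha₁ _ (hz u'), ha₂ _ (hz u),
      ha₂ _ (hz u'), cc_pt, cc_pt, cc_pt, cc_pt, map_smul, map_smul, map_smul, map_smul]
    simp only [hT.sym₁.smul_left, hT.sym₁.smul_right, hc]
    ring
  obtain ⟨d, hd⟩ := hT.exists_aniso₁
  have hc0 : c ≠ 0 := fun h0 => mul_ne_zero hd fw.y₁₁ (by rw [key, h0, mul_zero])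
  exact ⟨f₂ y₁ y₁ / c, div_ne_zero fw.y₁₁ hc0, fun u u' => by
    field_simp; linear_combination -key u u'⟩

/-- An element scalar on the slice lies in the stabiliser. -/
theorem mem_of_scalar_slice {g : GL ι F} (hg : g ∈ M) {t : F} (ht : t ≠ 0)
    (h : ∀ u, ap g (pt e P u w) = pt e P (t • u) w) : g ∈ T₀ := by
  have hgI := hM.le_isom hg
  have h2 := hT.two_ne
  set G : (Fin 3 → F) →ₗ[F] (Fin 3 → F) := t • LinearMap.id with hGdef
  have hG : Function.Bijective G :=
    ⟨fun x y hxy => smul_right_injective _ ht hxy, fun y => ⟨t⁻¹ • y, smul_inv_smul₀ ht y⟩⟩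
  have hGh : ∀ u, ap g (pt e P u w) = pt e P (G u) w := h
  have hginv : ∀ u, ap g⁻¹ (pt e P u w) = pt e P (t⁻¹ • u) w := fun u => ap_injective g (by
    rw [ap_ap_inv, h, smul_inv_smul₀ ht])
  have hcomm : ∀ v, f₁ v v ≠ 0 → g * hT.R v = hT.R v * g := by
    intro v hv
    set K := hT.R v with hK
    have hKK : K * K = 1 := by rw [hK, R, kron_mul, one_mul, hT.half_mul_self hv, kron_one]
    have hKi : K⁻¹ = K := inv_eq_of_mul_eq_one_right hKK
    have hKs : ∀ u z, ap K (pt e P u z) = pt e P (ap (hT.half v) u) z := fun u z => by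
      rw [hK, R, ap_kron, ap_one]
    have hKc : ∀ z X, hT.cc z (ap K X) = ap (hT.half v) (hT.cc z X) := fun z X => by
      rw [hK, R, hT.cc_kron_one]
    have hk : hT.InRad M w (g * K * g⁻¹ * K⁻¹) := by
      refine ⟨?_, fun u => ?_, fun X hX => ?_⟩
      · rw [show g * K * g⁻¹ * K⁻¹ = g * (K * g⁻¹ * K⁻¹) by simp only [mul_assoc]]
        exact mul_mem hg (hT.conj_mem hM (hT.half_mem v) (inv_mem hg))
      · rw [ap_mul, ap_mul, ap_mul, hKi, hKs, hginv, hKs, h, ap_smul, ← ap_mul,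
          hT.half_mul_self hv, ap_one, smul_inv_smul₀ ht]
      · set Z := ap g⁻¹ (ap K⁻¹ X) with hZ
        have hKX : hT.cc w (ap K⁻¹ X) = 0 := by rw [hKi, hKc, hX, ap_zero]
        have hZw : hT.cc w Z = 0 := by
          refine hT.cc_slice_map (g := g⁻¹) (inv_mem hgI) (G := t⁻¹ • LinearMap.id) ?_ hginv hKX
          exact fun y => ⟨t • y, inv_smul_smul₀ ht y⟩
        have hKZ : hT.cc w (ap K Z) = 0 := by rw [hKc, hZw, ap_zero]
        have hcc : ∀ y, f₂ y w = 0 → hT.cc y (ap g (ap K Z)) = hT.cc y X := by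
          intro y hy
          obtain ⟨a, ha⟩ := hT.exists_transport hM fw hg hG hGh hy
          have hgZ : ap g Z = ap K⁻¹ X := by rw [hZ, ap_ap_inv]
          rw [ha _ hKZ, hKc, hGdef, LinearMap.smul_apply, LinearMap.id_apply, ← ap_smul,
            show t • hT.cc a Z = hT.cc y (ap g Z) from (ha Z hZw).symm, hgZ, hKi, hKc, ← ap_mul,
            hT.half_mul_self hv, ap_one]
        refine hT.mem_slice_of_cc fw ?_ ?_ ?_
        · rw [map_sub, ap_mul, ap_mul, ap_mul, hT.cc_slice_map hgI hG.2 hGh hKZ, hX, sub_zero]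
        · rw [map_sub, ap_mul, ap_mul, ap_mul, hcc y₁ fw.y₁w, sub_self]
        · rw [map_sub, ap_mul, ap_mul, ap_mul, hcc y₂ fw.y₂w, sub_self]
    obtain ⟨y, hy, hyv, hky⟩ := hT.rad_eq hM fw hk
    have hconj : g * K * g⁻¹ = hT.xs w y fw.ww hy * K := by rw [← hky, inv_mul_cancel_right]
    have hxK : hT.xs w y fw.ww hy * K = K * hT.xs w y fw.ww hy := by
      simp only [xs, hK, R, kron_mul, mul_one, one_mul]
    have h1 : hT.xs w y fw.ww hy * hT.xs w y fw.ww hy = 1 := by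
      have : (g * K * g⁻¹) * (g * K * g⁻¹) = 1 := by rw [conj_mul, hKK, mul_one, mul_inv_cancel]
      rwa [hconj, mul_assoc, ← mul_assoc K, ← hxK, mul_assoc (hT.xs w y fw.ww hy) K K, hKK,
        mul_one] at this
    have hy0 : y = 0 := by
      refine hT.eq_zero_of_aniso fw.ww fw.wv (hT.sym₂.eq_zero_comm.mp hy) hyv ?_
      obtain ⟨d, hd⟩ := hT.exists_aniso₁
      rw [hT.xs_mul] at h1
      have e1 := congrArg (fun k => hT.cc y (ap k (pt e P d w'))) h1
      simp only [hT.ap_xs, cc_pt, map_add, map_sub, map_smul, hy, hT.sym₂.symm w' w, fw.wv,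
        hT.sym₂.symm w' (y + y), hT.sym₂.add_left, hyv, one_smul, ap_one, hT.sym₂.symm w' y,
        add_zero, zero_smul, smul_zero, sub_zero, add_eq_left] at e1
      have := (smul_eq_zero.mp e1).resolve_right fun h0 => hd (by rw [h0, hT.sym₁.zero_left])
      exact (mul_eq_zero.mp (show (2 : F) * f₂ y y = 0 by linear_combination this)).resolve_left h2
    have hy1 : hT.xs w y fw.ww hy = 1 := gl_ext fun X => by
      rw [hT.ap_xs, hy0, hT.sym₂.zero_left, mul_zero, zero_smul, add_zero, pt_zero_right, add_zero,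
        ap_one, ← zero_smul F (0 : Fin 4 → F), hT.cc_smul, zero_smul, pt_zero_left, sub_zero]
    rw [hy1, one_mul, mul_inv_eq_iff_eq_mul] at hconj
    exact hconj
  obtain ⟨d, hd⟩ := hT.exists_aniso₁
  set β : (Fin 4 → F) →ₗ[F] (Fin 4 → F) :=
    ((f₁ d d)⁻¹ • hT.dd d).comp ((apEquiv g).toLinearMap.comp (ptr e P d)) with hβdef
  have hβ : ∀ x z, ap g (pt e P x z) = pt e P x (β z) := by
    intro x z
    refine hT.ext_cc fun z' => ?_
    obtain ⟨c, hc⟩ := hT.scalar_of_half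
      (L := (hT.cc z').comp ((apEquiv g).toLinearMap.comp (ptl e P z))) fun v hv x => by
        have e1 : pt e P (ap (hT.half v) x) z = ap (hT.R v) (pt e P x z) := by
          rw [R, ap_kron, ap_one]
        simp only [LinearMap.comp_apply, LinearEquiv.coe_coe, apEquiv_apply, ptl_apply]
        rw [e1, ← ap_mul, hcomm v hv, ap_mul, R, hT.cc_kron_one]
    simp only [LinearMap.comp_apply, LinearEquiv.coe_coe, apEquiv_apply, ptl_apply] at hc
    have e2 : f₂ (hT.dd d (ap g (pt e P d z))) z' = c * f₁ d d := by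
      rw [← hT.polar_right', hT.polar_right, hc, hT.sym₁.smul_left]
    rw [hc, cc_pt, hβdef]
    simp only [LinearMap.comp_apply, LinearMap.smul_apply, LinearEquiv.coe_coe, apEquiv_apply,
      ptr_apply, hT.sym₂.smul_left, e2]
    congr 1
    field_simp
  have hd0 : d ≠ 0 := fun h0 => hd (by rw [h0, hT.sym₁.zero_left])
  have hinj : Function.Injective β := fun z z' hzz => pt_inj_right e P hd0 (ap_injective g (by
    rw [hβ, hβ, hzz]))
  refine (mem_iff e P g).mpr ⟨1, ofEquiv (LinearEquiv.ofBijective β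
    ⟨hinj, LinearMap.injective_iff_surjective.mp hinj⟩), fun x z => ?_⟩
  rw [hβ, ap_one, ap_ofEquiv]
  rfl

omit fw in
/-- An element carrying an isotropic slice into one lies in the stabiliser. -/
theorem mem_of_slice {g : GL ι F} (hg : g ∈ M) {w z : Fin 4 → F} (hw : f₂ w w = 0) (hw0 : w ≠ 0)
    (hz : f₂ z z = 0) (hz0 : z ≠ 0) (h : ∀ u, ∃ u', ap g (pt e P u w) = pt e P u' z) :
    g ∈ T₀ := by
  obtain ⟨b, hb, s, hs, hbz⟩ := hT.exists_line_move hw hw0 hz hz0
  set k := kron e P (1 : GL (Fin 3) F) b with hk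
  have hkT := hT.kron_right_mem hb
  suffices h' : k * g ∈ T₀ by
    have := mul_mem (inv_mem (Subgroup.mem_inf.mp hkT).1) h'
    rwa [inv_mul_cancel_left] at this
  have hgM : k * g ∈ M := mul_mem (hM.le hkT) hg
  obtain ⟨w', y₁, y₂, fw⟩ := hT.exists_wframe hw hw0
  set G : (Fin 3 → F) →ₗ[F] (Fin 3 → F) :=
    (hT.cc w').comp ((apEquiv (k * g)).toLinearMap.comp (ptl e P w)) with hGdef
  have hGh : ∀ u, ap (k * g) (pt e P u w) = pt e P (G u) w := fun u => by
    obtain ⟨u', hu'⟩ := h u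
    have e1 : ap (k * g) (pt e P u w) = pt e P (s • u') w := by
      rw [ap_mul, hu', hk, ap_kron, ap_one, hbz, pt_smul_right, pt_smul_left]
    show _ = pt e P (hT.cc w' (ap (k * g) (pt e P u w))) w
    rw [e1, cc_pt, fw.wv, one_smul]
  have hGi : Function.Injective G := fun u u' huu => pt_inj_left e P hw0 (ap_injective (k * g) (by
    rw [hGh, hGh, huu]))
  have hG : Function.Bijective G := ⟨hGi, LinearMap.injective_iff_surjective.mp hGi⟩
  obtain ⟨ν, hν, hsim⟩ := hT.slice_similitude hM fw hgM hG hGh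
  obtain ⟨ρ, hρ, -, a, ha, hGa⟩ := hT.exists_isom_of_similitude G hν hsim
  obtain ⟨r, hr, a', hrM, hGa'⟩ : ∃ r : F, r ≠ 0 ∧ ∃ a' : GL (Fin 3) F,
      kron e P a' (1 : GL (Fin 4) F) ∈ M ∧ ∀ x, G x = r • ap a' x := by
    rcases hT.good_of_isom ha with h1 | h1
    · exact ⟨ρ, hρ, a, hM.le ⟨kron_mem e P _ _, h1⟩, hGa⟩
    · exact ⟨-ρ, neg_ne_zero.mpr hρ, _, hM.le ⟨kron_mem e P _ _, h1⟩, fun x => by
        rw [hGa, ap_mul, ap_negOne]; module⟩
  have hfin := hT.mem_of_scalar_slice hM fw (mul_mem (inv_mem hrM) hgM) hr fun u => by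
    rw [ap_mul, hGh, kron_inv, ap_kron, inv_one, ap_one, hGa', ap_smul, ap_inv_ap]
  have := mul_mem (kron_mem e P a' (1 : GL (Fin 4) F)) hfin
  rwa [mul_inv_cancel_left] at this

end Data

end CfsgLib.Geometric.OrthThreeFour
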